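import Mathlib

set_option autoImplicit false

namespace Cfsg.Agent.H12A7

open Matrix

theorem fp_mod {α : Type*} [Finite α] (f : Function.End α) (p : ℕ) [Fact p.Prime]
    (hf : f ^ p = 1) : Nat.card α ≡ Nat.card {a : α // f a = a} [MOD p] := by
  classical
  have := Fintype.ofFinite α
  have h := Equiv.Perm.card_fixedPoints_modEq (f := f) (p := p) (n := 1) (by rwa [pow_one])
  rw [← Nat.card_eq_fintype_card, ← Nat.card_eq_fintype_card] at h
  exact h

theorem orbit_dvd {G α : Type*} [Group G] [MulAction G α] [Finite α] (x : α) (h : G) (p : ℕ)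
    [Fact p.Prime] (hp : h ^ p = 1) (hfix : ∀ y ∈ MulAction.orbit G x, h • y ≠ y) :
    p ∣ Nat.card (MulAction.orbit G x) := by
  have key := fp_mod (α := MulAction.orbit G x) (MulAction.toEndHom h) p
    (by rw [← map_pow, hp, map_one])
  have h0 : Nat.card {a : MulAction.orbit G x // MulAction.toEndHom h a = a} = 0 := by
    rw [Nat.card_eq_zero]
    left
    refine ⟨?_⟩
    rintro ⟨a, ha⟩
    apply hfix a.1 a.2
    have h2 : ((h • a : MulAction.orbit G x) : α) = a.1 :=
      congrArg (fun z : MulAction.orbit G x => (z : α)) ha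
    rwa [MulAction.orbit.coe_smul] at h2
  rw [h0] at key
  exact (Nat.modEq_zero_iff_dvd).mp key

theorem orbit_mod_le_one {G α : Type*} [Group G] [MulAction G α] [Finite α] (x : α) (h : G)
    (p : ℕ) [Fact p.Prime] (hp : h ^ p = 1)
    (hfix : ∀ y ∈ MulAction.orbit G x, ∀ z ∈ MulAction.orbit G x, h • y = y → h • z = z → y = z) :
    Nat.card (MulAction.orbit G x) % p ≤ 1 := by
  have key := fp_mod (α := MulAction.orbit G x) (MulAction.toEndHom h) p
    (by rw [← map_pow, hp, map_one])
  have h1 : Nat.card {a : MulAction.orbit G x // MulAction.toEndHom h a = a} ≤ 1 := by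
    rw [Finite.card_le_one_iff_subsingleton]
    refine ⟨?_⟩
    rintro ⟨a, ha⟩ ⟨b, hb⟩
    have h2 : ((h • a : MulAction.orbit G x) : α) = a.1 :=
      congrArg (fun z : MulAction.orbit G x => (z : α)) ha
    have h3 : ((h • b : MulAction.orbit G x) : α) = b.1 :=
      congrArg (fun z : MulAction.orbit G x => (z : α)) hb
    rw [MulAction.orbit.coe_smul] at h2 h3
    exact Subtype.ext (Subtype.ext (hfix a.1 a.2 b.1 b.2 h2 h3))
  unfold Nat.ModEq at key
  rw [key]
  exact (Nat.mod_le _ _).trans h1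

variable {F : Type*} [Field F] [Fintype F]

/-- The natural action of `GL₄` on column vectors. -/
@[reducible] def glAct : MulAction (GL (Fin 4) F) (Fin 4 → F) where
  smul g v := (g : Matrix (Fin 4) (Fin 4) F) *ᵥ v
  one_smul v := by
    show ((1 : GL (Fin 4) F) : Matrix (Fin 4) (Fin 4) F) *ᵥ v = v
    simp
  mul_smul g h v := by
    show ((g * h : GL (Fin 4) F) : Matrix (Fin 4) (Fin 4) F) *ᵥ v =
      (g : Matrix (Fin 4) (Fin 4) F) *ᵥ ((h : Matrix (Fin 4) (Fin 4) F) *ᵥ v)
    simp [Matrix.mulVec_mulVec]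

attribute [local instance] glAct

theorem gsmul (g : GL (Fin 4) F) (v : Fin 4 → F) :
    g • v = (g : Matrix (Fin 4) (Fin 4) F) *ᵥ v := rfl

theorem gsmul_zero (g : GL (Fin 4) F) : g • (0 : Fin 4 → F) = 0 := by
  rw [gsmul, Matrix.mulVec_zero]

theorem gsmul_ne_zero (g : GL (Fin 4) F) {v : Fin 4 → F} (hv : v ≠ 0) : g • v ≠ 0 := by
  intro h
  apply hv
  have h2 : g⁻¹ • (g • v) = g⁻¹ • (0 : Fin 4 → F) := by rw [h]
  rwa [← mul_smul, inv_mul_cancel, one_smul, gsmul_zero] at h2

theorem eq_one_of_fix (g : GL (Fin 4) F) (h : ∀ v : Fin 4 → F, g • v = v) : g = 1 := by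
  apply Units.ext
  ext i j
  have h1 := congrFun (h (Pi.single j 1)) i
  rw [gsmul, Matrix.mulVec_single_one] at h1
  rw [Units.val_one, Matrix.one_apply]
  rw [Pi.single_apply] at h1
  exact h1

def fixSp (g : GL (Fin 4) F) : Submodule F (Fin 4 → F) :=
  LinearMap.ker (Matrix.mulVecLin (g : Matrix (Fin 4) (Fin 4) F) - LinearMap.id)

theorem mem_fixSp (g : GL (Fin 4) F) (v : Fin 4 → F) : v ∈ fixSp g ↔ g • v = v := by
  rw [fixSp, LinearMap.mem_ker, LinearMap.sub_apply, Matrix.mulVecLin_apply, LinearMap.id_apply,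
    sub_eq_zero, gsmul]

theorem card_V (hF : Fintype.card F = 2) : Nat.card (Fin 4 → F) = 16 := by
  rw [Nat.card_eq_fintype_card, Fintype.card_fun, hF, Fintype.card_fin]
  rfl

theorem card_fix (hF : Fintype.card F = 2) (g : GL (Fin 4) F) :
    ∃ d, d ≤ 4 ∧ Nat.card {v : Fin 4 → F // g • v = v} = 2 ^ d := by
  refine ⟨Module.finrank F (fixSp g), ?_, ?_⟩
  · have h1 := Submodule.finrank_le (fixSp g)
    rwa [Module.finrank_fin_fun] at h1
  · have h1 : Nat.card (fixSp g) = Nat.card F ^ Module.finrank F (fixSp g) :=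
      Module.natCard_eq_pow_finrank
    rw [Nat.card_eq_fintype_card (α := F), hF] at h1
    rw [← h1]
    apply Nat.card_congr
    exact Equiv.subtypeEquivRight (fun v => (mem_fixSp g v).symm)

theorem all_fix_of_card (hF : Fintype.card F = 2) (g : GL (Fin 4) F)
    (h : Nat.card {v : Fin 4 → F // g • v = v} = 16) : g = 1 := by
  apply eq_one_of_fix
  intro v
  by_contra hv
  have h1 := Finite.card_subtype_lt (p := fun v : Fin 4 → F => g • v = v) hv
  rw [h, card_V hF] at h1
  exact lt_irrefl _ h1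

theorem fix5 (hF : Fintype.card F = 2) (g : GL (Fin 4) F) (h5 : g ^ 5 = 1) (h1 : g ≠ 1)
    (v : Fin 4 → F) (hv : g • v = v) : v = 0 := by
  have : Fact (Nat.Prime 5) := ⟨by norm_num⟩
  have key := fp_mod (α := Fin 4 → F) (MulAction.toEndHom g) 5 (by rw [← map_pow, h5, map_one])
  obtain ⟨d, hd, hc⟩ := card_fix hF g
  have key2 : Nat.card (Fin 4 → F) ≡ Nat.card {v : Fin 4 → F // g • v = v} [MOD 5] := key
  rw [card_V hF, hc] at key2
  have hd2 : d = 0 ∨ d = 4 := by
    unfold Nat.ModEq at key2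
    interval_cases d <;> simp_all
  rcases hd2 with rfl | rfl
  · have hs : Subsingleton {v : Fin 4 → F // g • v = v} := by
      rw [← Finite.card_le_one_iff_subsingleton, hc]
      norm_num
    have := congrArg Subtype.val (hs.elim ⟨v, hv⟩ ⟨0, gsmul_zero g⟩)
    exact this
  · exact absurd (all_fix_of_card hF g (by rw [hc]; norm_num)) h1

theorem fix7 (hF : Fintype.card F = 2) (g : GL (Fin 4) F) (h7 : g ^ 7 = 1) (h1 : g ≠ 1)
    (v w : Fin 4 → F) (hv : g • v = v) (hw : g • w = w) (hv0 : v ≠ 0) (hw0 : w ≠ 0) : v = w := by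
  classical
  have : Fact (Nat.Prime 7) := ⟨by norm_num⟩
  have key := fp_mod (α := Fin 4 → F) (MulAction.toEndHom g) 7 (by rw [← map_pow, h7, map_one])
  obtain ⟨d, hd, hc⟩ := card_fix hF g
  have key2 : Nat.card (Fin 4 → F) ≡ Nat.card {v : Fin 4 → F // g • v = v} [MOD 7] := key
  rw [card_V hF, hc] at key2
  have hd2 : d = 1 ∨ d = 4 := by
    unfold Nat.ModEq at key2
    interval_cases d <;> simp_all
  rcases hd2 with rfl | rfl
  · by_contra hne
    have h3 : ({0, v, w} : Finset (Fin 4 → F)).card = 3 :=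
      Finset.card_eq_three.mpr ⟨0, v, w, hv0.symm, hw0.symm, hne, rfl⟩
    have h4 : ({0, v, w} : Finset (Fin 4 → F)) ⊆ Finset.univ.filter (fun v => g • v = v) := by
      intro x hx
      simp only [Finset.mem_insert, Finset.mem_singleton] at hx
      simp only [Finset.mem_filter, Finset.mem_univ, true_and]
      rcases hx with rfl | rfl | rfl
      · exact gsmul_zero g
      · exact hv
      · exact hw
    have h5 := Finset.card_le_card h4
    rw [h3, ← Fintype.card_subtype, ← Nat.card_eq_fintype_card, hc] at h5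
    norm_num at h5
  · exact absurd (all_fix_of_card hF g (by rw [hc]; norm_num)) h1

end Cfsg.Agent.H12A7
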