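import Mathlib
import Cfsg.Agent.Helper12.A7a

set_option autoImplicit false

namespace Cfsg.Agent.H12A7

open Matrix

variable {F : Type*} [Field F] [Fintype F]

attribute [local instance] glAct

theorem card_nz (hF : Fintype.card F = 2) :
    ({v : Fin 4 → F | v ≠ 0}).ncard = 15 := by
  classical
  have h1 : {v : Fin 4 → F | v ≠ 0} = ↑(Finset.univ.erase (0 : Fin 4 → F)) := by
    ext p
    simp
  rw [h1, Set.ncard_coe_finset, Finset.card_erase_of_mem (Finset.mem_univ _), Finset.card_univ,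
    Fintype.card_fun, hF, Fintype.card_fin]
  norm_num

theorem card_pairs (hF : Fintype.card F = 2) :
    ({p : (Fin 4 → F) × (Fin 4 → F) | p.1 ≠ 0 ∧ p.2 ≠ 0 ∧ p.1 ≠ p.2}).ncard = 210 := by
  classical
  have h1 : {p : (Fin 4 → F) × (Fin 4 → F) | p.1 ≠ 0 ∧ p.2 ≠ 0 ∧ p.1 ≠ p.2} =
      ↑((Finset.univ.erase (0 : Fin 4 → F)).offDiag) := by
    ext p
    simp
  rw [h1, Set.ncard_coe_finset, Finset.offDiag_card,
    Finset.card_erase_of_mem (Finset.mem_univ _), Finset.card_univ,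
    Fintype.card_fun, hF, Fintype.card_fin]
  norm_num

theorem arith15 (n : ℕ) (h5 : 5 ∣ n) (h7 : n % 7 ≤ 1) (hpos : 0 < n) (hle : n ≤ 15) : n = 15 := by
  obtain ⟨k, rfl⟩ := h5
  have hk3 : k ≤ 3 := by omega
  have hk0 : 1 ≤ k := by omega
  interval_cases k <;> omega

theorem arith210 (n : ℕ) (h2 : 2 ∣ n) (h7 : 7 ∣ n) (h15 : 15 ∣ n) (hpos : 0 < n)
    (hle : n ≤ 210) : n = 210 := by
  have h105 : 15 * 7 ∣ n := Nat.Coprime.mul_dvd_of_dvd_of_dvd (by norm_num) h15 h7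
  have h210 : 2 * (15 * 7) ∣ n := Nat.Coprime.mul_dvd_of_dvd_of_dvd (by norm_num) h2 h105
  obtain ⟨k, rfl⟩ := h210
  omega

theorem two_trans (hF : Fintype.card F = 2) (H : Subgroup (GL (Fin 4) F))
    (hcard : Nat.card H = 2520) (v w v' w' : Fin 4 → F) (hv : v ≠ 0) (hw : w ≠ 0) (hvw : v ≠ w)
    (hv' : v' ≠ 0) (hw' : w' ≠ 0) (hvw' : v' ≠ w') :
    ∃ g ∈ H, (g : Matrix (Fin 4) (Fin 4) F) *ᵥ v = v' ∧
      (g : Matrix (Fin 4) (Fin 4) F) *ᵥ w = w' := by
  classical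
  have hfin : Finite H := Nat.finite_of_card_ne_zero (by rw [hcard]; norm_num)
  have p2 : Fact (Nat.Prime 2) := ⟨by norm_num⟩
  have p5 : Fact (Nat.Prime 5) := ⟨by norm_num⟩
  have p7 : Fact (Nat.Prime 7) := ⟨by norm_num⟩
  obtain ⟨t, ht⟩ := exists_prime_orderOf_dvd_card' (G := H) 2 (by rw [hcard]; norm_num)
  obtain ⟨b, hb⟩ := exists_prime_orderOf_dvd_card' (G := H) 5 (by rw [hcard]; norm_num)
  obtain ⟨g, hg⟩ := exists_prime_orderOf_dvd_card' (G := H) 7 (by rw [hcard]; norm_num)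
  have ht2 : t ^ 2 = 1 := by
    have h := pow_orderOf_eq_one t
    rwa [ht] at h
  have hb5 : b ^ 5 = 1 := by
    have h := pow_orderOf_eq_one b
    rwa [hb] at h
  have hg7 : g ^ 7 = 1 := by
    have h := pow_orderOf_eq_one g
    rwa [hg] at h
  have ht1 : t ≠ 1 := by
    intro h
    rw [h, orderOf_one] at ht
    norm_num at ht
  have hb1 : (b : GL (Fin 4) F) ≠ 1 := by
    intro h
    have h' : b = 1 := Subtype.ext h
    rw [h', orderOf_one] at hb
    norm_num at hb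
  have hg1 : (g : GL (Fin 4) F) ≠ 1 := by
    intro h
    have h' : g = 1 := Subtype.ext h
    rw [h', orderOf_one] at hg
    norm_num at hg
  have hb5' : (b : GL (Fin 4) F) ^ 5 = 1 := by
    rw [← Subgroup.coe_pow, hb5, Subgroup.coe_one]
  have hg7' : (g : GL (Fin 4) F) ^ 7 = 1 := by
    rw [← Subgroup.coe_pow, hg7, Subgroup.coe_one]
  -- a vector moved by the involution
  obtain ⟨u, hu⟩ : ∃ u : Fin 4 → F, t • u ≠ u := by
    by_contra hcon
    push Not at hcon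
    exact ht1 (Subtype.ext (eq_one_of_fix (t : GL (Fin 4) F) (fun v => hcon v)))
  have hu0 : u ≠ 0 := by
    intro h
    apply hu
    rw [h]
    exact gsmul_zero (t : GL (Fin 4) F)
  have htt : t • t • u = u := by
    rw [← mul_smul, ← pow_two, ht2, one_smul]
  -- the orbit of u
  have hO1 : ∀ y ∈ MulAction.orbit H u, y ≠ 0 := by
    rintro y ⟨h, rfl⟩
    exact gsmul_ne_zero (h : GL (Fin 4) F) hu0
  have d5 : 5 ∣ Nat.card (MulAction.orbit H u) :=
    orbit_dvd u b 5 hb5 (fun y hy hfix => hO1 y hy (fix5 hF (b : GL (Fin 4) F) hb5' hb1 y hfix))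
  have m7 : Nat.card (MulAction.orbit H u) % 7 ≤ 1 :=
    orbit_mod_le_one u g 7 hg7 (fun y hy z hz h1 h2 =>
      fix7 hF (g : GL (Fin 4) F) hg7' hg1 y z h1 h2 (hO1 y hy) (hO1 z hz))
  have le15 : Nat.card (MulAction.orbit H u) ≤ 15 := by
    rw [Nat.card_coe_set_eq, ← card_nz hF]
    exact Set.ncard_le_ncard (fun y hy => hO1 y hy) (Set.toFinite _)
  have pos1 : 0 < Nat.card (MulAction.orbit H u) := by
    have : Nonempty (MulAction.orbit H u) := ⟨⟨u, MulAction.mem_orbit_self u⟩⟩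
    exact Nat.card_pos
  have n1 : Nat.card (MulAction.orbit H u) = 15 := by
    exact arith15 _ d5 m7 pos1 le15
  have idx1 : (MulAction.stabilizer H u).index = 15 := by
    rw [MulAction.index_stabilizer, ← Nat.card_coe_set_eq]
    exact n1
  -- the orbit of the pair (u, t u)
  have hO2 : ∀ y ∈ MulAction.orbit H ((u, t • u) : (Fin 4 → F) × (Fin 4 → F)),
      y.1 ≠ 0 ∧ y.2 ≠ 0 ∧ y.1 ≠ y.2 := by
    rintro y ⟨h, rfl⟩
    refine ⟨gsmul_ne_zero (h : GL (Fin 4) F) hu0,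
      gsmul_ne_zero (h : GL (Fin 4) F) (gsmul_ne_zero (t : GL (Fin 4) F) hu0), ?_⟩
    intro heq
    exact hu (smul_left_cancel h heq).symm
  have e5 : 5 ∣ Nat.card (MulAction.orbit H ((u, t • u) : (Fin 4 → F) × (Fin 4 → F))) :=
    orbit_dvd _ b 5 hb5 (fun y hy hfix => (hO2 y hy).1
      (fix5 hF (b : GL (Fin 4) F) hb5' hb1 y.1 (congrArg Prod.fst hfix)))
  have e7 : 7 ∣ Nat.card (MulAction.orbit H ((u, t • u) : (Fin 4 → F) × (Fin 4 → F))) :=
    orbit_dvd _ g 7 hg7 (fun y hy hfix => (hO2 y hy).2.2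
      (fix7 hF (g : GL (Fin 4) F) hg7' hg1 y.1 y.2 (congrArg Prod.fst hfix)
        (congrArg Prod.snd hfix) (hO2 y hy).1 (hO2 y hy).2.1))
  have hsw : ∀ y ∈ MulAction.orbit H ((u, t • u) : (Fin 4 → F) × (Fin 4 → F)),
      (y.2, y.1) ∈ MulAction.orbit H ((u, t • u) : (Fin 4 → F) × (Fin 4 → F)) := by
    rintro y ⟨h, rfl⟩
    refine ⟨h * t, ?_⟩
    show ((h * t) • u, (h * t) • t • u) = (h • t • u, h • u)
    rw [mul_smul, mul_smul, htt]
  have e2 : 2 ∣ Nat.card (MulAction.orbit H ((u, t • u) : (Fin 4 → F) × (Fin 4 → F))) := by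
    obtain ⟨sw, hswdef⟩ : ∃ sw : Function.End (MulAction.orbit H
        ((u, t • u) : (Fin 4 → F) × (Fin 4 → F))), ∀ y, (sw y).1 = (y.1.2, y.1.1) :=
      ⟨fun y => ⟨(y.1.2, y.1.1), hsw y.1 y.2⟩, fun y => rfl⟩
    have key := fp_mod sw 2 (by
      rw [pow_two]
      funext y
      apply Subtype.ext
      show (sw (sw y)).1 = y.1
      rw [hswdef, hswdef])
    have h0 : Nat.card {a : MulAction.orbit H ((u, t • u) : (Fin 4 → F) × (Fin 4 → F)) //
        sw a = a} = 0 := by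
      rw [Nat.card_eq_zero]
      left
      refine ⟨?_⟩
      rintro ⟨a, ha⟩
      have h2 : (a.1.2, a.1.1) = a.1 := by rw [← hswdef, ha]
      exact (hO2 a.1 a.2).2.2 (congrArg Prod.fst h2).symm
    rw [h0] at key
    exact (Nat.modEq_zero_iff_dvd).mp key
  have e15 : 15 ∣ Nat.card (MulAction.orbit H ((u, t • u) : (Fin 4 → F) × (Fin 4 → F))) := by
    have hle : MulAction.stabilizer H ((u, t • u) : (Fin 4 → F) × (Fin 4 → F)) ≤
        MulAction.stabilizer H u := by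
      intro h hh
      rw [MulAction.mem_stabilizer_iff] at hh ⊢
      exact congrArg Prod.fst hh
    have h1 := Subgroup.index_dvd_of_le hle
    rw [idx1, MulAction.index_stabilizer, ← Nat.card_coe_set_eq] at h1
    exact h1
  have hsub : MulAction.orbit H ((u, t • u) : (Fin 4 → F) × (Fin 4 → F)) ⊆
      {p : (Fin 4 → F) × (Fin 4 → F) | p.1 ≠ 0 ∧ p.2 ≠ 0 ∧ p.1 ≠ p.2} := fun y hy => hO2 y hy
  have le210 : Nat.card (MulAction.orbit H ((u, t • u) : (Fin 4 → F) × (Fin 4 → F))) ≤ 210 := by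
    rw [Nat.card_coe_set_eq, ← card_pairs hF]
    exact Set.ncard_le_ncard hsub (Set.toFinite _)
  have pos2 : 0 < Nat.card (MulAction.orbit H ((u, t • u) : (Fin 4 → F) × (Fin 4 → F))) := by
    have : Nonempty (MulAction.orbit H ((u, t • u) : (Fin 4 → F) × (Fin 4 → F))) :=
      ⟨⟨_, MulAction.mem_orbit_self _⟩⟩
    exact Nat.card_pos
  have n2 : Nat.card (MulAction.orbit H ((u, t • u) : (Fin 4 → F) × (Fin 4 → F))) = 210 := by
    exact arith210 _ e2 e7 e15 pos2 le210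
  have hall : MulAction.orbit H ((u, t • u) : (Fin 4 → F) × (Fin 4 → F)) =
      {p : (Fin 4 → F) × (Fin 4 → F) | p.1 ≠ 0 ∧ p.2 ≠ 0 ∧ p.1 ≠ p.2} := by
    apply Set.eq_of_subset_of_ncard_le hsub _ (Set.toFinite _)
    rw [card_pairs hF, ← Nat.card_coe_set_eq, n2]
  have m1 : ((v, w) : (Fin 4 → F) × (Fin 4 → F)) ∈
      MulAction.orbit H ((u, t • u) : (Fin 4 → F) × (Fin 4 → F)) := by
    rw [hall]
    exact ⟨hv, hw, hvw⟩
  have m2 : ((v', w') : (Fin 4 → F) × (Fin 4 → F)) ∈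
      MulAction.orbit H ((u, t • u) : (Fin 4 → F) × (Fin 4 → F)) := by
    rw [hall]
    exact ⟨hv', hw', hvw'⟩
  obtain ⟨h1, hh1⟩ := m1
  obtain ⟨h2, hh2⟩ := m2
  have a1 : h1 • u = v := congrArg Prod.fst hh1
  have a2 : h1 • t • u = w := congrArg Prod.snd hh1
  have b1 : h2 • u = v' := congrArg Prod.fst hh2
  have b2 : h2 • t • u = w' := congrArg Prod.snd hh2
  refine ⟨((h2 * h1⁻¹ : H) : GL (Fin 4) F), (h2 * h1⁻¹).2, ?_, ?_⟩
  · show (h2 * h1⁻¹) • v = v'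
    rw [← a1, mul_smul, inv_smul_smul, b1]
  · show (h2 * h1⁻¹) • w = w'
    rw [← a2, mul_smul, inv_smul_smul, b2]

end Cfsg.Agent.H12A7
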