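import Mathlib
import Cfsg.Agent.Helper12.A7b
import Cfsg.Agent.S0256

set_option autoImplicit false

namespace Cfsg.Agent.H12A7

open Matrix

variable {F : Type*} [Field F] [Fintype F]

theorem eq_one_of_ne_zero (hF : Fintype.card F = 2) (x : F) (hx : x ≠ 0) : x = 1 := by
  classical
  have h1 : Fintype.card Fˣ = 1 := by rw [Fintype.card_units, hF]
  have hs : Subsingleton Fˣ := Fintype.card_le_one_iff_subsingleton.mp h1.le
  have h2 := congrArg Units.val (hs.elim (Units.mk0 x hx) 1)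
  simpa using h2

theorem center_sl (hF : Fintype.card F = 2) :
    Subgroup.center (Matrix.SpecialLinearGroup (Fin 4) F) = ⊥ := by
  rw [eq_bot_iff]
  intro A hA
  rw [Matrix.SpecialLinearGroup.mem_center_iff] at hA
  obtain ⟨r, hr, hA⟩ := hA
  have hr0 : r ≠ 0 := by
    intro h
    rw [h] at hr
    simp at hr
  have hr1 : r = 1 := eq_one_of_ne_zero hF r hr0
  rw [Subgroup.mem_bot]
  apply Subtype.ext
  rw [← hA, hr1]
  simp

theorem exists_A7 (hF : Fintype.card F = 2) :
    ∃ H : Subgroup (GL (Fin 4) F), Nonempty (H ≃* alternatingGroup (Fin 7)) := by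
  classical
  obtain ⟨e1⟩ := Cfsg.Agent.S0256.result hF
  obtain ⟨e2⟩ : Nonempty (Matrix.ProjectiveSpecialLinearGroup (Fin 4) F ≃*
      Matrix.SpecialLinearGroup (Fin 4) F) :=
    ⟨(QuotientGroup.quotientMulEquivOfEq (center_sl hF)).trans QuotientGroup.quotientBot⟩
  obtain ⟨f⟩ : Nonempty (Fin 7 ≃ {b : Fin 8 // b ∈ Set.range (Fin.castSucc : Fin 7 → Fin 8)}) :=
    ⟨Equiv.ofInjective (Fin.castSucc : Fin 7 → Fin 8) (Fin.castSucc_injective 7)⟩
  have hι0 : Function.Injective (Equiv.Perm.extendDomainHom f) :=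
    Equiv.Perm.extendDomainHom_injective f
  obtain ⟨ι, hιdef⟩ : ∃ ι : alternatingGroup (Fin 7) →* alternatingGroup (Fin 8),
      ∀ x, ((ι x : alternatingGroup (Fin 8)) : Equiv.Perm (Fin 8)) =
        Equiv.Perm.extendDomainHom f x.1 := by
    refine ⟨((Equiv.Perm.extendDomainHom f).comp (alternatingGroup (Fin 7)).subtype).codRestrict
      (alternatingGroup (Fin 8)) ?_, fun x => rfl⟩
    intro x
    rw [Equiv.Perm.mem_alternatingGroup]
    show Equiv.Perm.sign (Equiv.Perm.extendDomain x.1 f) = 1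
    rw [Equiv.Perm.sign_extendDomain]
    exact Equiv.Perm.mem_alternatingGroup.mp x.2
  have hι : Function.Injective ι := by
    intro x y hxy
    have h2 := congrArg (fun z : alternatingGroup (Fin 8) => (z : Equiv.Perm (Fin 8))) hxy
    simp only [hιdef] at h2
    exact Subtype.ext (hι0 h2)
  obtain ⟨φ, hφdef⟩ : ∃ φ : alternatingGroup (Fin 7) →* GL (Fin 4) F,
      ∀ x, φ x = Matrix.SpecialLinearGroup.toGL (e2 (e1.symm (ι x))) :=
    ⟨(Matrix.SpecialLinearGroup.toGL).comp ((e2.toMonoidHom).comp ((e1.symm.toMonoidHom).comp ι)),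
      fun x => rfl⟩
  have hφ : Function.Injective φ := by
    intro x y hxy
    rw [hφdef, hφdef] at hxy
    exact hι (e1.symm.injective (e2.injective (Matrix.SpecialLinearGroup.toGL_injective hxy)))
  exact ⟨φ.range, ⟨(MonoidHom.ofInjective hφ).symm⟩⟩

theorem card_A7 : Nat.card (alternatingGroup (Fin 7)) = 2520 := by
  have h := two_mul_nat_card_alternatingGroup (α := Fin 7)
  rw [Nat.card_perm, Nat.card_fin] at h
  have h7 : Nat.factorial 7 = 5040 := by decide
  omega

theorem main (hF : Fintype.card F = 2) :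
    (∃ H : Subgroup (Matrix.GeneralLinearGroup (Fin 4) F),
      Nonempty (H ≃* alternatingGroup (Fin 7))) ∧
    ∀ H : Subgroup (Matrix.GeneralLinearGroup (Fin 4) F),
      Nonempty (H ≃* alternatingGroup (Fin 7)) →
      ∀ v w v' w' : Fin 4 → F, v ≠ 0 → w ≠ 0 → v ≠ w → v' ≠ 0 → w' ≠ 0 → v' ≠ w' →
        ∃ g ∈ H, (g : Matrix (Fin 4) (Fin 4) F).mulVec v = v' ∧
          (g : Matrix (Fin 4) (Fin 4) F).mulVec w = w' := by
  refine ⟨exists_A7 hF, ?_⟩
  rintro H ⟨e⟩ v w v' w' hv hw hvw hv' hw' hvw'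
  have hcard : Nat.card H = 2520 := (Nat.card_congr e.toEquiv).trans card_A7
  exact two_trans hF H hcard v w v' w' hv hw hvw hv' hw' hvw'

end Cfsg.Agent.H12A7
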