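import Mathlib

set_option autoImplicit false

/-!
# The plane of order two

A group acting on `(ZMod 2)^3` by maps that fix `0` and respect the sum of two distinct non-zero
vectors acts linearly, giving a homomorphism to `GL(3, 2)`.
-/

namespace Cfsg.Agent.Helper12

/-- The three-dimensional space over the field with two elements. -/
abbrev V2 : Type := Fin 3 → ZMod 2

theorem V2_two (v : V2) : v + v = 0 := by
  funext i
  simp only [Pi.add_apply, Pi.zero_apply]
  generalize v i = a
  revert a
  decide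

theorem card_GL32 : Nat.card (GL (Fin 3) (ZMod 2)) = 168 := by
  rw [Matrix.card_GL_field]
  simp [Fin.prod_univ_three, ZMod.card]

theorem exists_GL3_hom {K : Type*} [Group K] (F : K → V2 → V2) (h1 : ∀ v, F 1 v = v)
    (hmul : ∀ a b v, F (a * b) v = F a (F b v)) (h0 : ∀ a, F a 0 = 0)
    (hF : ∀ a u v, u ≠ 0 → v ≠ 0 → u ≠ v → F a (u + v) = F a u + F a v) :
    ∃ φ : K →* GL (Fin 3) (ZMod 2), ∀ a v,
      F a v = (φ a : Matrix (Fin 3) (Fin 3) (ZMod 2)).mulVec v := by
  have hadd : ∀ a u v, F a (u + v) = F a u + F a v := by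
    intro a u v
    by_cases hu : u = 0
    · rw [hu, zero_add, h0, zero_add]
    by_cases hv : v = 0
    · rw [hv, add_zero, h0, add_zero]
    by_cases huv : u = v
    · rw [huv, V2_two, h0, V2_two]
    exact hF a u v hu hv huv
  let L : K → (V2 →+ V2) := fun a => AddMonoidHom.mk' (F a) (hadd a)
  let M : K → Matrix (Fin 3) (Fin 3) (ZMod 2) :=
    fun a => LinearMap.toMatrix' ((L a).toZModLinearMap 2)
  have hM1 : M 1 = 1 := by
    have : (L 1).toZModLinearMap 2 = LinearMap.id := LinearMap.ext h1
    show LinearMap.toMatrix' ((L 1).toZModLinearMap 2) = 1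
    rw [this, LinearMap.toMatrix'_id]
  have hMmul : ∀ a b, M (a * b) = M a * M b := by
    intro a b
    have : (L (a * b)).toZModLinearMap 2 =
        ((L a).toZModLinearMap 2).comp ((L b).toZModLinearMap 2) := LinearMap.ext (hmul a b)
    show LinearMap.toMatrix' ((L (a * b)).toZModLinearMap 2) = _
    rw [this, LinearMap.toMatrix'_comp]
  let φ0 : K →* Matrix (Fin 3) (Fin 3) (ZMod 2) :=
    { toFun := M, map_one' := hM1, map_mul' := hMmul }
  refine ⟨φ0.toHomUnits, fun a v => ?_⟩
  have e : ((φ0.toHomUnits a : GL (Fin 3) (ZMod 2)) : Matrix (Fin 3) (Fin 3) (ZMod 2)) = M a := rfl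
  rw [e]
  show F a v = (LinearMap.toMatrix' ((L a).toZModLinearMap 2)).mulVec v
  rw [LinearMap.toMatrix'_mulVec]
  rfl

end Cfsg.Agent.Helper12
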