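import Mathlib
import Cfsg.Agent.Helper12.G549a

set_option autoImplicit false
open scoped Pointwise

namespace Cfsg.Agent.H12G549
open Cfsg Cfsg.Agent.Helper12

/-- the codeword with systematic index `i % 4096` -/
def cwS (i : ℕ) : ↥golayCode :=
  ⟨wordOf (get24 CA (i % 4096)), cw_mem _ _ (Nat.mod_lt _ (by norm_num)) rfl⟩

theorem cwS_coe (i : ℕ) :
    ((cwS i : ↥golayCode) : GolayPt → ZMod 2) = wordOf (get24 CA (i % 4096)) := rfl

theorem exists_cwS (c : ↥golayCode) : ∃ i, i < 4096 ∧ c = cwS i := by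
  obtain ⟨i, hi, e⟩ := mem_code_imp _ c.2
  exact ⟨i, hi, Subtype.ext (by rw [cwS_coe, Nat.mod_eq_of_lt hi]; exact e)⟩

theorem sumB_eq (n : ℕ) (f : ℕ → ℕ) : sumB n f = ∑ k ∈ Finset.range n, f k := by
  induction n with
  | zero => rfl
  | succ n ih => rw [Finset.sum_range_succ, ← ih]; rfl

theorem wordOf_xs (n i : ℕ) : wordOf (xs n i) = ∑ j ∈ Finset.range n,
    (if i.testBit j = true then wordOf (get24 CA (2 ^ j % 4096)) else 0) := by
  induction n with
  | zero => exact wordOf_zero
  | succ n ih =>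
    rw [Finset.sum_range_succ, ← ih]
    show wordOf (xs n i ^^^ (bif tb i n then get24 CA (2 ^ n % 4096) else 0)) = _
    rw [wordOf_xor, tb_eq]
    cases i.testBit n <;> simp [wordOf_zero]

theorem cwS_decomp {i : ℕ} (hi : i < 4096) :
    cwS i = ∑ j ∈ Finset.range 12, (if i.testBit j = true then cwS (2 ^ j) else 0) := by
  apply Subtype.ext
  rw [AddSubmonoidClass.coe_finsetSum]
  have h1 : get24 CA (i % 4096) = xs 12 i := by
    rw [Nat.mod_eq_of_lt hi]; exact Nat.eq_of_beq_eq_true (allB_spec k_xs i hi)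
  rw [cwS_coe, h1, wordOf_xs]
  refine Finset.sum_congr rfl (fun j _ => ?_)
  split_ifs <;> rfl

theorem psi_decomp (ψ : ↥golayCode →ₗ[ZMod 2] ZMod 2) {i : ℕ} (hi : i < 4096) :
    ψ (cwS i) = ∑ j ∈ Finset.range 12, (if i.testBit j = true then ψ (cwS (2 ^ j)) else 0) := by
  conv_lhs => rw [cwS_decomp hi]
  rw [map_sum]
  refine Finset.sum_congr rfl (fun j _ => ?_)
  split_ifs <;> simp

theorem pbits_eq (n k : ℕ) : (if pbits n k = true then (1 : ZMod 2) else 0)
    = ∑ j ∈ Finset.range n, (if k.testBit j = true then (1 : ZMod 2) else 0) := by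
  induction n with
  | zero => rfl
  | succ n ih =>
    rw [Finset.sum_range_succ, ← ih]
    show (if xor (pbits n k) (tb k n) = true then (1 : ZMod 2) else 0) = _
    rw [tb_eq]
    cases pbits n k <;> cases k.testBit n <;> decide

theorem PT_eq {k : ℕ} (hk : k < 4096) : (if tb PT k = true then (1 : ZMod 2) else 0)
    = ∑ j ∈ Finset.range 12, (if k.testBit j = true then (1 : ZMod 2) else 0) := by
  have h := allB_spec k_pt k hk
  rw [← pbits_eq]
  cases h1 : tb PT k <;> cases h2 : pbits 12 k <;> simp_all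

theorem land_one_eq (x : ℕ) :
    Nat.land x 1 = if Nat.beq (Nat.land x 1) 1 = true then 1 else 0 := by
  have h : Nat.land x 1 = x % 2 := Nat.and_one_is_mod x
  rw [h]
  rcases Nat.mod_two_eq_zero_or_one x with h0 | h1
  · rw [h0]; rfl
  · rw [h1]; rfl

theorem exists_bits (n : ℕ) (b : ℕ → Bool) :
    ∃ a, a < 2 ^ n ∧ ∀ j, j < n → a.testBit j = b j := by
  induction n with
  | zero => exact ⟨0, by norm_num, fun j hj => absurd hj (by omega)⟩
  | succ n ih =>
    obtain ⟨a, ha, h⟩ := ih
    refine ⟨2 ^ n * (b n).toNat + a, ?_, fun j hj => ?_⟩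
    · have : (b n).toNat ≤ 1 := Bool.toNat_le (b n)
      calc 2 ^ n * (b n).toNat + a < 2 ^ n * 1 + 2 ^ n := by nlinarith
        _ = 2 ^ (n + 1) := by ring
    · rw [Nat.testBit_two_pow_mul_add _ ha]
      rcases Nat.lt_succ_iff_lt_or_eq.mp hj with hj' | rfl
      · rw [if_pos hj']; exact h j hj'
      · rw [if_neg (lt_irrefl _), Nat.sub_self]
        cases b j <;> rfl

/-- the functional `c ↦ c p + c q` on the code -/
def evL (p q : GolayPt) : ↥golayCode →ₗ[ZMod 2] ZMod 2 :=
  ((LinearMap.proj p : (GolayPt → ZMod 2) →ₗ[ZMod 2] ZMod 2) + LinearMap.proj q) ∘ₗ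
    golayCode.subtype

theorem evL_apply (p q : GolayPt) (c : ↥golayCode) :
    evL p q c = (c : GolayPt → ZMod 2) p + (c : GolayPt → ZMod 2) q := rfl

/-- the `k`-th octad as a codeword -/
def oct (k : ℕ) : ↥golayCode := cwS (get24 OA k)

theorem oct_coe {k : ℕ} (hk : k < 759) :
    ((oct k : ↥golayCode) : GolayPt → ZMod 2) = wordOf (get24 OA k) := by
  show wordOf (get24 CA (get24 OA k % 4096)) = _
  rw [(isCode_iff _).mp (OA_spec hk).1]

theorem oct_card {k : ℕ} (hk : k < 759) :
    (support₂ ((oct k : ↥golayCode) : GolayPt → ZMod 2)).card = 8 := by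
  rw [oct_coe hk, support_wordOf, card_ofMask, (OA_spec hk).2]

theorem CA_last : get24 CA 4095 = 16777215 := (isCode_iff 16777215).mp isCode_full

theorem one_coe : ((cwS 4095 : ↥golayCode) : GolayPt → ZMod 2) = fun _ => (1 : ZMod 2) := by
  show wordOf (get24 CA 4095) = _
  rw [CA_last, ← GA_last, ← one_eq_wordOf]; rfl

theorem oct_inj {k l : ℕ} (hk : k < 759) (hl : l < 759) (h : oct k = oct l) : k = l := by
  have h1 : wordOf (get24 OA k) = wordOf (get24 OA l) := by
    rw [← oct_coe hk, ← oct_coe hl, h]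
  have h2 := wordOf_inj (get24_lt _ _) (get24_lt _ _) h1
  by_contra hne
  rcases lt_or_gt_of_ne hne with h3 | h3
  · exact absurd h2 (ne_of_lt (OA_strictMono k l h3 hl))
  · exact absurd h2.symm (ne_of_lt (OA_strictMono l k h3 hk))

theorem oct_ne_compl {k l : ℕ} (hk : k < 759) (hl : l < 759) : oct k ≠ oct l + cwS 4095 := by
  intro h
  have h1 : wordOf (get24 OA k) = wordOf (get24 OA l ^^^ 16777215) := by
    rw [wordOf_xor, ← oct_coe hk, ← oct_coe hl, h, Submodule.coe_add]
    congr 1
  have h2 : ofMask (get24 OA k) = (ofMask (get24 OA l))ᶜ := by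
    rw [← ofMask_compl, ← support_wordOf, ← support_wordOf, h1]
  have h3 := congrArg Finset.card h2
  rw [Finset.card_compl, card_ofMask, card_ofMask, (OA_spec hk).2, (OA_spec hl).2,
    H12Out.card_GolayPt] at h3
  omega

/-- the octads (by index) on which a functional vanishes -/
noncomputable def Z8 (ψ : ↥golayCode → ZMod 2) : Finset ℕ :=
  (Finset.range 759).filter (fun k => ψ (oct k) = 0)

/-- a functional is given on the systematic indices by the parity table -/
theorem code_of (ψ : ↥golayCode →ₗ[ZMod 2] ZMod 2) (a : ℕ)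
    (ha : ∀ j, j < 12 → ψ (cwS (2 ^ j)) = if a.testBit j = true then 1 else 0) :
    ∀ i, i < 4096 → ψ (cwS i) = if tb PT (a &&& i) = true then 1 else 0 := by
  intro i hi
  rw [psi_decomp ψ hi, PT_eq (lt_of_le_of_lt Nat.and_le_right hi)]
  refine Finset.sum_congr rfl (fun j hj => ?_)
  rw [ha j (Finset.mem_range.mp hj), Nat.testBit_and]
  cases a.testBit j <;> cases i.testBit j <;> rfl

theorem count_eq (ψ : ↥golayCode →ₗ[ZMod 2] ZMod 2) (a : ℕ)
    (hψ : ∀ i, i < 4096 → ψ (cwS i) = if tb PT (a &&& i) = true then 1 else 0) :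
    (Z8 ψ).card + NO a = 759 := by
  have h1 : NO a = ((Finset.range 759).filter (fun k => ¬ ψ (oct k) = 0)).card := by
    show sumB 759 (fun k => Nat.land (Nat.shiftRight PT (Nat.land a (get24 OI k))) 1) = _
    rw [sumB_eq, Finset.card_filter]
    refine Finset.sum_congr rfl (fun k hk => ?_)
    have hk' := Finset.mem_range.mp hk
    have e1 : get24 OI k = get24 OA k % 4096 := Nat.eq_of_beq_eq_true (allB_spec k_oi k hk')
    have e2 : oct k = cwS (get24 OI k) := by
      apply Subtype.ext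
      show wordOf (get24 CA (get24 OA k % 4096)) = wordOf (get24 CA (get24 OI k % 4096))
      rw [e1, Nat.mod_mod]
    have e3 := hψ (get24 OI k) (by rw [e1]; exact Nat.mod_lt _ (by norm_num))
    rw [e2, e3, land_one_eq]
    show (if tb PT (a &&& get24 OI k) = true then 1 else 0) = _
    cases tb PT (a &&& get24 OI k) <;> simp
  rw [h1]
  have h2 := Finset.card_filter_add_card_filter_not (s := Finset.range 759)
    (fun k => ψ (oct k) = 0)
  rw [Finset.card_range] at h2
  exact h2

theorem cwS_pow_apply {j p : ℕ} (hp : p < 24) :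
    ((cwS (2 ^ j) : ↥golayCode) : GolayPt → ZMod 2) (pt p)
      = if tb (get24 CA (2 ^ j % 4096)) p = true then 1 else 0 := by
  show (if (get24 CA (2 ^ j % 4096)).testBit (idx (pt p)) = true then (1 : ZMod 2) else 0) = _
  rw [idx_pt hp, tb_eq]

theorem col_bit {p j : ℕ} (hp : p < 24) (hj : j < 12) :
    (col p).testBit j = tb (get24 CA (2 ^ j % 4096)) p := by
  have h := allB_spec (allB_spec k_col p hp) j hj
  rw [← tb_eq]
  change (bif tb (col p) j then tb (get24 CA (2 ^ j % 4096)) p
    else !(tb (get24 CA (2 ^ j % 4096)) p)) = true at h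
  cases h1 : tb (col p) j <;> cases h2 : tb (get24 CA (2 ^ j % 4096)) p <;> simp_all

theorem duad_code {p q : ℕ} (hp : p < 24) (hq : q < 24) :
    ∀ j, j < 12 → evL (pt p) (pt q) (cwS (2 ^ j))
      = if (col p ^^^ col q).testBit j = true then 1 else 0 := by
  intro j hj
  rw [evL_apply, cwS_pow_apply hp, cwS_pow_apply hq, Nat.testBit_xor, col_bit hp hj,
    col_bit hq hj]
  cases tb (get24 CA (2 ^ j % 4096)) p <;> cases tb (get24 CA (2 ^ j % 4096)) q <;> decide

theorem duad_count {p q : ℕ} (hp : p < 24) (hq : q < 24) (hpq : p ≠ q) :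
    407 ≤ (Z8 (evL (pt p) (pt q))).card := by
  have h1 := count_eq (evL (pt p) (pt q)) (col p ^^^ col q) (code_of _ _ (duad_code hp hq))
  have h2 := allB_spec (allB_spec k_duad p hp) q hq
  have h3 : Nat.beq p q = false := by
    cases hb : Nat.beq p q with
    | false => rfl
    | true => exact absurd (Nat.eq_of_beq_eq_true hb) hpq
  rw [h3] at h2
  have h4 : NO (col p ^^^ col q) ≤ 352 := Nat.le_of_ble_eq_true h2
  omega

theorem pt_ne {p q : ℕ} (hp : p < 24) (hq : q < 24) (hpq : p ≠ q) : pt p ≠ pt q := by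
  intro h
  apply hpq
  rw [← idx_pt hp, ← idx_pt hq, h]

/-- an even functional vanishing on at least 407 octads is a duad functional -/
theorem classify (ψ : ↥golayCode →ₗ[ZMod 2] ZMod 2) (hne : ∃ c, ψ c ≠ 0)
    (h1 : ψ (cwS 4095) = 0) (hN : 407 ≤ (Z8 ψ).card) :
    ∃ p q : GolayPt, p ≠ q ∧
      ∀ c : ↥golayCode, ψ c = (c : GolayPt → ZMod 2) p + (c : GolayPt → ZMod 2) q := by
  obtain ⟨a, ha, hbits⟩ := exists_bits 12 (fun j => decide (ψ (cwS (2 ^ j)) = 1))
  have hz : ∀ z : ZMod 2, z = if decide (z = 1) = true then 1 else 0 := by decide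
  have hcode : ∀ j, j < 12 → ψ (cwS (2 ^ j)) = if a.testBit j = true then 1 else 0 := by
    intro j hj
    rw [hbits j hj]
    exact hz _
  have hψ := code_of ψ a hcode
  have hcnt := count_eq ψ a hψ
  have heven : tb PT a = false := by
    have e := hψ 4095 (by norm_num)
    rw [h1] at e
    have e2 : a &&& 4095 = a := by
      have := Nat.and_two_pow_sub_one_eq_mod a 12
      rw [show (2 : ℕ) ^ 12 - 1 = 4095 by norm_num, Nat.mod_eq_of_lt ha] at this
      exact this
    rw [e2] at e
    cases hb : tb PT a with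
    | false => rfl
    | true => rw [hb] at e; simp at e
  have hmain := allB_spec k_main a ha
  rw [heven] at hmain
  have hle : Nat.ble (NO a) 352 = true := Nat.ble_eq_true_of_le (by omega)
  rw [hle] at hmain
  simp only [cond_false, cond_true, Bool.or_eq_true, Nat.beq_eq] at hmain
  rcases hmain with h0 | hdf
  · exfalso
    obtain ⟨c, hc⟩ := hne
    obtain ⟨i, hi, rfl⟩ := exists_cwS c
    apply hc
    rw [hψ i hi, h0, Nat.zero_and]
    rfl
  · have hdfa := allB_spec k_df a ha
    rw [hdf] at hdfa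
    simp only [cond_true, Bool.and_eq_true, Nat.blt_eq, Bool.not_eq_true', Nat.beq_eq] at hdfa
    obtain ⟨⟨⟨hp, hq⟩, hpq⟩, hax⟩ := hdfa
    have hpq' : get24 PW a ≠ get24 QW a := by
      exact Nat.ne_of_beq_eq_false hpq
    refine ⟨pt (get24 PW a), pt (get24 QW a), pt_ne hp hq hpq', ?_⟩
    intro c
    obtain ⟨i, hi, rfl⟩ := exists_cwS c
    rw [← evL_apply, psi_decomp ψ hi, psi_decomp (evL _ _) hi]
    refine Finset.sum_congr rfl (fun j hj => ?_)
    have hj' := Finset.mem_range.mp hj
    rw [hcode j hj', duad_code hp hq j hj']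
    have hax' : a = col (get24 PW a) ^^^ col (get24 QW a) := hax
    rw [← hax']

end Cfsg.Agent.H12G549
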