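import Mathlib
import Cfsg.Agent.Helper12.G549b

set_option autoImplicit false
open scoped Pointwise

namespace Cfsg.Agent.H12G549
open Cfsg Cfsg.Agent.Helper12

/-- the orbit hypothesis on a single linear automorphism of the code -/
def OrbHyp (y : ↥golayCode ≃ₗ[ZMod 2] ↥golayCode) : Prop :=
  ∀ c : ↥golayCode, ∃ σ ∈ M24,
    ((y c : ↥golayCode) : GolayPt → ZMod 2) = (fun p => (c : GolayPt → ZMod 2) (σ.symm p)) ∨
    ((y c : ↥golayCode) : GolayPt → ZMod 2)
      = (fun p => (c : GolayPt → ZMod 2) (σ.symm p)) + fun _ => (1 : ZMod 2)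

theorem fix_one (y : ↥golayCode ≃ₗ[ZMod 2] ↥golayCode) (hy : OrbHyp y) :
    y (cwS 4095) = cwS 4095 := by
  obtain ⟨σ, -, h | h⟩ := hy (cwS 4095)
  · apply Subtype.ext
    rw [h, one_coe]
  · exfalso
    have h0 : y (cwS 4095) = 0 := by
      apply Subtype.ext
      rw [h, one_coe]
      funext p
      show (1 : ZMod 2) + 1 = 0
      decide
    have h1 : cwS 4095 = 0 := by
      have := y.injective (h0.trans (map_zero y).symm)
      exact this
    have h2 := congrArg (fun c : ↥golayCode => (c : GolayPt → ZMod 2) none) h1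
    simp only [one_coe] at h2
    exact absurd h2 (by decide)

theorem add_self_code (c : ↥golayCode) : c + c = 0 := by
  apply Subtype.ext
  funext p
  show (c : GolayPt → ZMod 2) p + (c : GolayPt → ZMod 2) p = 0
  exact CharTwo.add_self_eq_zero _

theorem transport8 (y : ↥golayCode ≃ₗ[ZMod 2] ↥golayCode) (hy : OrbHyp y)
    (φ : ↥golayCode →ₗ[ZMod 2] ZMod 2) (hφ1 : φ (cwS 4095) = 0) :
    (Z8 φ).card ≤ (Z8 (φ ∘ₗ y.symm.toLinearMap)).card := by
  have hone := fix_one y hy
  have hone' : y.symm (cwS 4095) = cwS 4095 := by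
    rw [LinearEquiv.symm_apply_eq]; exact hone.symm
  have hex : ∀ k, ∃ k', k < 759 →
      (k' < 759 ∧ (y (oct k) = oct k' ∨ y (oct k) = oct k' + cwS 4095)) := by
    intro k
    by_cases hk : k < 759
    swap
    · exact ⟨0, fun h => absurd h hk⟩
    obtain ⟨σ, hσ, h⟩ := hy (oct k)
    have hwmem : (fun p => ((oct k : ↥golayCode) : GolayPt → ZMod 2) (σ.symm p)) ∈ golayCode :=
      (Cfsg.Agent.Helper3.mem_M24_iff σ⁻¹).mp (inv_mem hσ) _ (oct k).2
    obtain ⟨i, hi, e⟩ := mem_code_imp _ hwmem
    have hcard : popc (get24 CA i) = 8 := by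
      have h1 : (support₂ (fun p => ((oct k : ↥golayCode) : GolayPt → ZMod 2) (σ.symm p))).card
          = 8 := by
        have h2 := Cfsg.Agent.Helper3.support₂_comp ((oct k : ↥golayCode) : GolayPt → ZMod 2) σ⁻¹
        rw [show (fun p => ((oct k : ↥golayCode) : GolayPt → ZMod 2) (σ.symm p))
          = ((oct k : ↥golayCode) : GolayPt → ZMod 2) ∘ ⇑σ⁻¹ from rfl, h2,
          Finset.card_smul_finset, oct_card hk]
      rw [e, support_wordOf, card_ofMask] at h1
      exact h1
    have hcode : isCode (get24 CA i) = true := by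
      have hs : get24 CA i % 4096 = i := Nat.eq_of_beq_eq_true (allB_spec k_sys i hi)
      rw [isCode_iff, hs]
    obtain ⟨k', hk', ek'⟩ := exists_OA hcode hcard
    have hoct : ((oct k' : ↥golayCode) : GolayPt → ZMod 2)
        = (fun p => ((oct k : ↥golayCode) : GolayPt → ZMod 2) (σ.symm p)) := by
      rw [oct_coe hk', ek', e]
    refine ⟨k', fun _ => ⟨hk', ?_⟩⟩
    rcases h with h | h
    · left; exact Subtype.ext (by rw [h, hoct])
    · right
      apply Subtype.ext
      rw [h, Submodule.coe_add, hoct, one_coe]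
  choose f hf using hex
  apply Finset.card_le_card_of_injOn f
  · intro k hk
    have hk1 : k ∈ (Finset.range 759).filter (fun k => φ (oct k) = 0) := hk
    rw [Finset.mem_filter, Finset.mem_range] at hk1
    obtain ⟨hk759, hk0⟩ := hk1
    obtain ⟨hf1, hf2⟩ := hf k hk759
    show f k ∈ (Finset.range 759).filter (fun k => (φ ∘ₗ y.symm.toLinearMap) (oct k) = 0)
    rw [Finset.mem_filter, Finset.mem_range]
    refine ⟨hf1, ?_⟩
    show φ (y.symm (oct (f k))) = 0
    rcases hf2 with h | h
    · rw [← h, LinearEquiv.symm_apply_apply]; exact hk0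
    · have h' : oct (f k) = y (oct k) + cwS 4095 := by
        rw [h, add_assoc, add_self_code, add_zero]
      rw [h', map_add, LinearEquiv.symm_apply_apply, hone', map_add, hk0, hφ1, add_zero]
  · intro k1 hk1 k2 hk2 heq
    have hk1' : k1 ∈ (Finset.range 759).filter (fun k => φ (oct k) = 0) := hk1
    have hk2' : k2 ∈ (Finset.range 759).filter (fun k => φ (oct k) = 0) := hk2
    rw [Finset.mem_filter, Finset.mem_range] at hk1' hk2'
    obtain ⟨-, hf1⟩ := hf k1 hk1'.1
    obtain ⟨-, hf2⟩ := hf k2 hk2'.1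
    rw [heq] at hf1
    have hcases : oct k1 = oct k2 ∨ oct k1 = oct k2 + cwS 4095 ∨ oct k2 = oct k1 + cwS 4095 := by
      rcases hf1 with h1 | h1 <;> rcases hf2 with h2 | h2
      · left; exact y.injective (h1.trans h2.symm)
      · right; right
        apply y.injective
        rw [map_add, hone, h2, h1]
      · right; left
        apply y.injective
        rw [map_add, hone, h1, h2]
      · left; exact y.injective (h1.trans h2.symm)
    rcases hcases with h | h | h
    · exact oct_inj hk1'.1 hk2'.1 h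
    · exact absurd h (oct_ne_compl hk1'.1 hk2'.1)
    · exact absurd h (oct_ne_compl hk2'.1 hk1'.1)

/-! ## Small words orthogonal to the code vanish -/

theorem small_orth {w : GolayPt → ZMod 2} (hs : (support₂ w).card ≤ 7)
    (h : ∀ c ∈ golayCode, ∑ p, w p * c p = 0) : w = 0 := by
  have hw : w ∈ golayCode := H12Out.mem_golay_of_orth h
  obtain ⟨i, hi, e⟩ := mem_code_imp w hw
  have hc : isCode (get24 CA i) = true := by
    have hs : get24 CA i % 4096 = i := Nat.eq_of_beq_eq_true (allB_spec k_sys i hi)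
    rw [isCode_iff, hs]
  have hcard : (support₂ w).card = popc (get24 CA i) := by
    rw [e, support_wordOf, card_ofMask]
  have h0 : popc (get24 CA i) = 0 := by
    rcases isCode_weight hc with h | h | h | h | h <;> omega
  have hemp : support₂ w = ∅ := Finset.card_eq_zero.mp (hcard.trans h0)
  funext p
  by_contra hp
  have hmem : p ∈ support₂ w := by
    simp only [support₂, Finset.mem_filter, Finset.mem_univ, true_and]
    exact hp
  rw [hemp] at hmem
  exact absurd hmem (Finset.notMem_empty _)

/-- indicator word of a set of points -/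
def ind (D : Finset GolayPt) : GolayPt → ZMod 2 := fun p => if p ∈ D then 1 else 0

theorem sum_ind_mul (D : Finset GolayPt) (c : GolayPt → ZMod 2) :
    ∑ p, ind D p * c p = ∑ p ∈ D, c p := by
  simp only [ind, ite_mul, one_mul, zero_mul]
  rw [Finset.sum_ite_mem, Finset.univ_inter]

theorem three_orth (D1 D2 D3 : Finset GolayPt) (h1 : D1.card ≤ 2) (h2 : D2.card ≤ 2)
    (h3 : D3.card ≤ 2)
    (h : ∀ c ∈ golayCode, ∑ p ∈ D1, c p + ∑ p ∈ D2, c p + ∑ p ∈ D3, c p = 0) :
    ∀ p, ind D1 p + ind D2 p + ind D3 p = 0 := by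
  have hw : (fun p => ind D1 p + ind D2 p + ind D3 p) = 0 := by
    apply small_orth
    · refine le_trans (Finset.card_le_card (?_ : _ ⊆ D1 ∪ D2 ∪ D3)) ?_
      · intro p hp
        simp only [support₂, Finset.mem_filter, Finset.mem_univ, true_and] at hp
        by_contra hn
        simp only [Finset.mem_union, not_or] at hn
        apply hp
        simp [ind, hn.1.1, hn.1.2, hn.2]
      · have e1 := Finset.card_union_le (D1 ∪ D2) D3
        have e2 := Finset.card_union_le D1 D2
        omega
    · intro c hc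
      simp only [add_mul, Finset.sum_add_distrib, sum_ind_mul]
      exact h c hc
  intro p
  exact congrFun hw p

theorem nonzero2 {r s : GolayPt} (hrs : r ≠ s) :
    ∃ d : ↥golayCode, (d : GolayPt → ZMod 2) r + (d : GolayPt → ZMod 2) s ≠ 0 := by
  by_contra hno
  push Not at hno
  have key := three_orth {r, s} ∅ ∅ (by rw [Finset.card_pair hrs]) (by simp) (by simp)
    (fun c hc => by
      rw [Finset.sum_pair hrs, Finset.sum_empty, add_zero, add_zero]
      exact hno ⟨c, hc⟩) r
  simp [ind] at key

theorem nonzero4 {r s t u : GolayPt} (h1 : r ≠ s) (h2 : r ≠ t) (h3 : r ≠ u) (h4 : t ≠ u) :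
    ∃ d : ↥golayCode, (d : GolayPt → ZMod 2) r + (d : GolayPt → ZMod 2) s
      + (d : GolayPt → ZMod 2) t + (d : GolayPt → ZMod 2) u ≠ 0 := by
  by_contra hno
  push Not at hno
  have key := three_orth {r, s} {t, u} ∅ (by rw [Finset.card_pair h1])
    (by rw [Finset.card_pair h4]) (by simp)
    (fun c hc => by
      rw [Finset.sum_pair h1, Finset.sum_pair h4, Finset.sum_empty, add_zero]
      have := hno ⟨c, hc⟩
      rw [← this]; ring) r
  simp [ind, h2, h3] at key

end Cfsg.Agent.H12G549
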