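import Mathlib
import Cfsg.Agent.Helper12.G549c

set_option autoImplicit false
open scoped Pointwise

namespace Cfsg.Agent.H12G549
open Cfsg Cfsg.Agent.Helper12

/-- image duad of a duad functional -/
theorem star1 (x : ↥golayCode ≃ₗ[ZMod 2] ↥golayCode) (hx : OrbHyp x) {r s : GolayPt}
    (hrs : r ≠ s) :
    ∃ D : Finset GolayPt, D.card = 2 ∧ ∀ d : ↥golayCode,
      ∑ t ∈ D, ((x d : ↥golayCode) : GolayPt → ZMod 2) t
        = (d : GolayPt → ZMod 2) r + (d : GolayPt → ZMod 2) s := by
  have hone := fix_one x hx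
  have hone' : x.symm (cwS 4095) = cwS 4095 := by
    rw [LinearEquiv.symm_apply_eq]; exact hone.symm
  have hev1 : evL r s (cwS 4095) = 0 := by
    rw [evL_apply, one_coe]
    show (1 : ZMod 2) + 1 = 0
    decide
  have hcount : 407 ≤ (Z8 (evL r s)).card := by
    have := duad_count (idx_lt r) (idx_lt s) (fun h => hrs (idx_injective h))
    rwa [pt_idx, pt_idx] at this
  have htr := transport8 x hx (evL r s) hev1
  obtain ⟨d0, hd0⟩ := nonzero2 hrs
  obtain ⟨p, q, hpq, hψ⟩ := classify (evL r s ∘ₗ x.symm.toLinearMap) ⟨x d0, by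
      show evL r s (x.symm (x d0)) ≠ 0
      rw [LinearEquiv.symm_apply_apply, evL_apply]; exact hd0⟩
    (by show evL r s (x.symm (cwS 4095)) = 0
        rw [hone']; exact hev1)
    (le_trans hcount htr)
  refine ⟨{p, q}, Finset.card_pair hpq, fun d => ?_⟩
  rw [Finset.sum_pair hpq]
  have h := hψ (x d)
  rw [← h]
  show evL r s (x.symm (x d)) = _
  rw [LinearEquiv.symm_apply_apply, evL_apply]

theorem eqpair (S : Finset GolayPt) (p q : GolayPt) (hS : S.card = 2) (hp : p ∈ S) (hq : q ∈ S)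
    (hpq : p ≠ q) : S = {p, q} := by
  symm
  apply Finset.eq_of_subset_of_card_le
  · intro z hz
    rcases Finset.mem_insert.mp hz with rfl | hz
    · exact hp
    · rw [Finset.mem_singleton] at hz; rw [hz]; exact hq
  · rw [hS, Finset.card_pair hpq]

theorem star (x : ↥golayCode ≃ₗ[ZMod 2] ↥golayCode)
    (H : ∀ r s : GolayPt, r ≠ s → ∃ D : Finset GolayPt, D.card = 2 ∧ ∀ d : ↥golayCode,
      ∑ t ∈ D, ((x d : ↥golayCode) : GolayPt → ZMod 2) t
        = (d : GolayPt → ZMod 2) r + (d : GolayPt → ZMod 2) s) :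
    ∃ (σf : GolayPt → GolayPt) (a : GolayPt), ∀ (u : GolayPt) (d : ↥golayCode),
      ((x d : ↥golayCode) : GolayPt → ZMod 2) (σf u) = (d : GolayPt → ZMod 2) u
        + (((x d : ↥golayCode) : GolayPt → ZMod 2) a + (d : GolayPt → ZMod 2) none) := by
  classical
  have h2 : (2 : ZMod 2) = 0 := by decide
  have H' : ∀ s : GolayPt, ∃ D : Finset GolayPt, s ≠ none → (D.card = 2 ∧ ∀ d : ↥golayCode,
      ∑ t ∈ D, ((x d : ↥golayCode) : GolayPt → ZMod 2) t
        = (d : GolayPt → ZMod 2) none + (d : GolayPt → ZMod 2) s) := by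
    intro s
    by_cases hs : s = none
    · exact ⟨∅, fun h => absurd hs h⟩
    · obtain ⟨D, h⟩ := H none s (Ne.symm hs)
      exact ⟨D, fun _ => h⟩
  choose D hD using H'
  have hsurj : ∀ c ∈ golayCode, ∃ d : ↥golayCode,
      ((x d : ↥golayCode) : GolayPt → ZMod 2) = c :=
    fun c hc => ⟨x.symm ⟨c, hc⟩, by rw [LinearEquiv.apply_symm_apply]⟩
  have P1 : ∀ s t, s ≠ none → t ≠ none → s ≠ t → D s ≠ D t := by
    intro s t hs ht hst heq
    obtain ⟨d, hd⟩ := nonzero2 hst
    have e1 := (hD s hs).2 d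
    have e2 := (hD t ht).2 d
    rw [heq, e2] at e1
    apply hd
    have e3 := add_left_cancel e1
    rw [e3]; exact CharTwo.add_self_eq_zero _
  have P2 : ∀ s t, s ≠ none → t ≠ none → s ≠ t → ∃ a, a ∈ D s ∧ a ∈ D t := by
    intro s t hs ht hst
    obtain ⟨E, hE2, hEsum⟩ := H s t hst
    have key := three_orth (D s) (D t) E (le_of_eq (hD s hs).1) (le_of_eq (hD t ht).1)
      (le_of_eq hE2)
      (fun c hc => by
        obtain ⟨d, rfl⟩ := hsurj c hc
        rw [(hD s hs).2 d, (hD t ht).2 d, hEsum d]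
        linear_combination ((d : GolayPt → ZMod 2) none + (d : GolayPt → ZMod 2) s
          + (d : GolayPt → ZMod 2) t) * h2)
    by_contra hno
    push Not at hno
    have hsub : D s ⊆ E := by
      intro p hp
      have k1 := key p
      by_contra hpE
      simp [ind, hp, hno p hp, hpE] at k1
    have htsub : D t ⊆ E := by
      intro p hp
      have k1 := key p
      have hps : p ∉ D s := fun h => hno p h hp
      by_contra hpE
      simp [ind, hp, hps, hpE] at k1
    have hdisj : Disjoint (D s) (D t) := Finset.disjoint_left.mpr hno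
    have hc := Finset.card_le_card (Finset.union_subset hsub htsub)
    rw [Finset.card_union_of_disjoint hdisj, (hD s hs).1, (hD t ht).1, hE2] at hc
    omega
  have P3 : ∀ s t u, s ≠ none → t ≠ none → u ≠ none → s ≠ t → s ≠ u → t ≠ u →
      ∃ a, a ∈ D s ∧ a ∈ D t ∧ a ∈ D u := by
    intro s t u hs ht hu hst hsu htu
    by_contra hno
    push Not at hno
    obtain ⟨a, has, hat⟩ := P2 s t hs ht hst
    obtain ⟨b, hbs, hbu⟩ := P2 s u hs hu hsu
    obtain ⟨c, hct, hcu⟩ := P2 t u ht hu htu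
    have hab : a ≠ b := fun h => hno a has hat (h ▸ hbu)
    have hac : a ≠ c := fun h => hno a has hat (h ▸ hcu)
    have hbc : b ≠ c := fun h => hno b hbs (h ▸ hct) hbu
    have eDs := eqpair (D s) a b (hD s hs).1 has hbs hab
    have eDt := eqpair (D t) a c (hD t ht).1 hat hct hac
    have eDu := eqpair (D u) b c (hD u hu).1 hbu hcu hbc
    obtain ⟨d, hd⟩ := nonzero4 (Ne.symm hs) (Ne.symm ht) (Ne.symm hu) htu
    apply hd
    have e1 := (hD s hs).2 d
    have e2 := (hD t ht).2 d
    have e3 := (hD u hu).2 d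
    rw [eDs, Finset.sum_pair hab] at e1
    rw [eDt, Finset.sum_pair hac] at e2
    rw [eDu, Finset.sum_pair hbc] at e3
    linear_combination (-1 : ZMod 2) * e1 - e2 - e3
      + (((x d : ↥golayCode) : GolayPt → ZMod 2) a + ((x d : ↥golayCode) : GolayPt → ZMod 2) b
        + ((x d : ↥golayCode) : GolayPt → ZMod 2) c - (d : GolayPt → ZMod 2) none) * h2
  have hs0 : (some 0 : GolayPt) ≠ none := by decide
  have ht0 : (some 1 : GolayPt) ≠ none := by decide
  have hst0 : (some 0 : GolayPt) ≠ some 1 := by decide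
  obtain ⟨a, ha0, ha1⟩ := P2 (some 0) (some 1) hs0 ht0 hst0
  have huniq : ∀ b, b ∈ D (some 0) → b ∈ D (some 1) → b = a := by
    intro b hb0 hb1
    by_contra hne
    apply P1 (some 0) (some 1) hs0 ht0 hst0
    rw [eqpair (D (some 0)) b a (hD _ hs0).1 hb0 ha0 hne,
      eqpair (D (some 1)) b a (hD _ ht0).1 hb1 ha1 hne]
  have hall : ∀ u, u ≠ none → a ∈ D u := by
    intro u hu
    by_cases h0 : u = some 0
    · rw [h0]; exact ha0
    by_cases h1 : u = some 1
    · rw [h1]; exact ha1
    obtain ⟨b, hb0, hb1, hbu⟩ := P3 (some 0) (some 1) u hs0 ht0 hu hst0 (Ne.symm h0) (Ne.symm h1)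
    rw [← huniq b hb0 hb1]; exact hbu
  have hother : ∀ u : GolayPt, ∃ b : GolayPt, u ≠ none → ∀ d : ↥golayCode,
      ((x d : ↥golayCode) : GolayPt → ZMod 2) a + ((x d : ↥golayCode) : GolayPt → ZMod 2) b
        = (d : GolayPt → ZMod 2) none + (d : GolayPt → ZMod 2) u := by
    intro u
    by_cases hu : u = none
    · exact ⟨a, fun h => absurd hu h⟩
    have hcard : ((D u).erase a).card = 1 := by
      rw [Finset.card_erase_of_mem (hall u hu), (hD u hu).1]
    obtain ⟨b, hb⟩ := Finset.card_eq_one.mp hcard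
    have hbmem : b ∈ (D u).erase a := by rw [hb]; exact Finset.mem_singleton_self b
    have hba : b ≠ a := Finset.ne_of_mem_erase hbmem
    have hDu : D u = {a, b} :=
      eqpair (D u) a b (hD u hu).1 (hall u hu) (Finset.mem_of_mem_erase hbmem) (Ne.symm hba)
    refine ⟨b, fun _ d => ?_⟩
    have e := (hD u hu).2 d
    rw [hDu, Finset.sum_pair (Ne.symm hba)] at e
    exact e
  choose σ' hσ' using hother
  refine ⟨fun u => if u = none then a else σ' u, a, fun u d => ?_⟩
  show ((x d : ↥golayCode) : GolayPt → ZMod 2) (if u = none then a else σ' u) = _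
  by_cases hu : u = none
  · rw [if_pos hu, hu]
    linear_combination (-(d : GolayPt → ZMod 2) none) * h2
  · rw [if_neg hu]
    have e := hσ' u hu d
    linear_combination e - (((x d : ↥golayCode) : GolayPt → ZMod 2) a) * h2

theorem final (x : ↥golayCode ≃ₗ[ZMod 2] ↥golayCode) (hx : OrbHyp x) :
    ∃ σ ∈ M24, ∀ c : ↥golayCode,
      ((x c : ↥golayCode) : GolayPt → ZMod 2) = (fun p => (c : GolayPt → ZMod 2) (σ.symm p)) ∨
      ((x c : ↥golayCode) : GolayPt → ZMod 2)
        = (fun p => (c : GolayPt → ZMod 2) (σ.symm p)) + fun _ => (1 : ZMod 2) := by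
  obtain ⟨σf, a, hσ⟩ := star x (fun r s hrs => star1 x hx hrs)
  have hinj : Function.Injective σf := by
    intro u v heq
    by_contra hne
    obtain ⟨d, hd⟩ := nonzero2 hne
    have e1 := hσ u d
    have e2 := hσ v d
    rw [heq, e2] at e1
    apply hd
    have e3 := add_right_cancel e1
    rw [e3]; exact CharTwo.add_self_eq_zero _
  let σ : Equiv.Perm GolayPt := Equiv.ofBijective σf (Finite.injective_iff_bijective.mp hinj)
  have key : ∀ (d : ↥golayCode) (p : GolayPt),
      ((x d : ↥golayCode) : GolayPt → ZMod 2) p = (d : GolayPt → ZMod 2) (σ.symm p)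
        + (((x d : ↥golayCode) : GolayPt → ZMod 2) a + (d : GolayPt → ZMod 2) none) := by
    intro d p
    have e := hσ (σ.symm p) d
    have e2 : σf (σ.symm p) = p := σ.apply_symm_apply p
    rw [e2] at e
    exact e
  have hk : ∀ z : ZMod 2, z = 0 ∨ z = 1 := by decide
  have hdisj : ∀ c : ↥golayCode,
      ((x c : ↥golayCode) : GolayPt → ZMod 2) = (fun p => (c : GolayPt → ZMod 2) (σ.symm p)) ∨
      ((x c : ↥golayCode) : GolayPt → ZMod 2)
        = (fun p => (c : GolayPt → ZMod 2) (σ.symm p)) + fun _ => (1 : ZMod 2) := by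
    intro c
    rcases hk (((x c : ↥golayCode) : GolayPt → ZMod 2) a + (c : GolayPt → ZMod 2) none)
      with h0 | h1
    · left; funext p; rw [key c p, h0, add_zero]
    · right; funext p; rw [key c p, h1]; rfl
  refine ⟨σ, ?_, hdisj⟩
  have hinv : σ⁻¹ ∈ M24 := by
    rw [Cfsg.Agent.Helper3.mem_M24_iff]
    intro w hw
    have hone : (fun _ => (1 : ZMod 2)) ∈ golayCode := by
      rw [← one_coe]; exact (cwS 4095).2
    rcases hdisj ⟨w, hw⟩ with h | h
    · have e : w ∘ ⇑σ⁻¹ = ((x ⟨w, hw⟩ : ↥golayCode) : GolayPt → ZMod 2) := h.symm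
      rw [e]; exact (x ⟨w, hw⟩).2
    · have e : w ∘ ⇑σ⁻¹
          = ((x ⟨w, hw⟩ : ↥golayCode) : GolayPt → ZMod 2) + fun _ => (1 : ZMod 2) := by
        rw [h, add_assoc]
        have e0 : ((fun _ => (1 : ZMod 2)) + fun _ => (1 : ZMod 2) : GolayPt → ZMod 2) = 0 := by
          funext p
          show (1 : ZMod 2) + 1 = 0
          decide
        rw [e0, add_zero]; rfl
      rw [e]; exact add_mem (x ⟨w, hw⟩).2 hone
  have h := inv_mem hinv
  rwa [inv_inv] at h

end Cfsg.Agent.H12G549
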