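import Mathlib
import Cfsg.Agent.Helper12.GolayTrio2

/-!
# The punctured code of length 23

Weight distribution and perfection of the code obtained from the length-24 code by deleting the
extra coordinate.
-/

set_option autoImplicit false
open scoped Pointwise

namespace Cfsg.Agent.Helper12
open Cfsg

/-- The punctured code. -/
def punctCode : Set (ZMod 23 → ZMod 2) :=
  {u | ∃ w ∈ golayCode, ∀ x : ZMod 23, u x = w (some x)}

/-- The punctured word of the mask `m`. -/
def pw (m : ℕ) : ZMod 23 → ZMod 2 := fun x => wordOf m (some x)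

theorem mem_punct_iff (u : ZMod 23 → ZMod 2) :
    u ∈ punctCode ↔ ∃ k, k < 4096 ∧ u = pw (get24 CA k) := by
  constructor
  · rintro ⟨w, hw, h⟩
    obtain ⟨i, hi, rfl⟩ := mem_code_imp w hw
    exact ⟨i, hi, funext h⟩
  · rintro ⟨k, hk, rfl⟩
    exact ⟨wordOf (get24 CA k), (mem_golayCode_iff _).mpr ⟨k, hk, rfl⟩, fun _ => rfl⟩

theorem pw_ne_zero_iff (m : ℕ) (x : ZMod 23) : pw m x ≠ 0 ↔ m.testBit (ZMod.val x) = true := by
  show (if m.testBit (idx (some x)) = true then (1 : ZMod 2) else 0) ≠ 0 ↔ _
  show (if m.testBit (ZMod.val x) = true then (1 : ZMod 2) else 0) ≠ 0 ↔ _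
  by_cases h : m.testBit (ZMod.val x) = true
  · rw [if_pos h]; exact iff_of_true (by decide) h
  · rw [if_neg h]; exact iff_of_false (by simp) h

theorem testBit_m23 (i : ℕ) : (8388607 : ℕ).testBit i = decide (i < 23) := by
  have : (8388607 : ℕ) = 2 ^ 23 - 1 := by norm_num
  rw [this, Nat.testBit_two_pow_sub_one]

theorem hammingNorm_pw (m : ℕ) : hammingNorm (pw m) = popc (Nat.land m 8388607) := by
  rw [← card_ofMask]
  have h : ofMask (Nat.land m 8388607)
      = (Finset.univ.filter (fun x : ZMod 23 => pw m x ≠ 0)).map Function.Embedding.some := by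
    ext p
    rw [mem_ofMask, Finset.mem_map]
    have hb : ∀ i, (Nat.land m 8388607).testBit i = (m.testBit i && decide (i < 23)) := by
      intro i
      show (m &&& 8388607).testBit i = _
      rw [Nat.testBit_and, testBit_m23]
    rw [hb]
    cases p with
    | none =>
      constructor
      · intro h1
        simp [idx] at h1
      · rintro ⟨x, _, hx⟩
        exact absurd hx (by simp)
    | some x =>
      have hx : ZMod.val x < 23 := ZMod.val_lt x
      constructor
      · intro h1
        refine ⟨x, ?_, rfl⟩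
        rw [Finset.mem_filter, pw_ne_zero_iff]
        simp only [idx, Bool.and_eq_true] at h1
        exact ⟨Finset.mem_univ _, h1.1⟩
      · rintro ⟨y, hy, e⟩
        have e' : y = x := Option.some.inj e
        subst e'
        rw [Finset.mem_filter, pw_ne_zero_iff] at hy
        simp only [idx, Bool.and_eq_true]
        exact ⟨hy.2, decide_eq_true hx⟩
  rw [h, Finset.card_map]
  rfl

theorem pw_mask {m m' : ℕ} (h : pw m = pw m') : Nat.land m 8388607 = Nat.land m' 8388607 := by
  apply Nat.eq_of_testBit_eq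
  intro i
  show (m &&& 8388607).testBit i = (m' &&& 8388607).testBit i
  rw [Nat.testBit_and, Nat.testBit_and, testBit_m23]
  by_cases hi : i < 23
  · have hv : ZMod.val ((i : ℕ) : ZMod 23) = i := ZMod.val_natCast_of_lt hi
    have h1 := pw_ne_zero_iff m ((i : ℕ) : ZMod 23)
    have h2 := pw_ne_zero_iff m' ((i : ℕ) : ZMod 23)
    rw [hv] at h1 h2
    rw [h] at h1
    have : m.testBit i = m'.testBit i := by
      cases ha : m.testBit i <;> cases hb : m'.testBit i <;> simp_all
    rw [this]
  · simp [hi]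

theorem k_psys : allB 4096 (fun k => Nat.beq (Nat.mod (Nat.land (get24 CA k) 8388607) 4096) k) = true := by
  decide +kernel

theorem pw_inj (k l : ℕ) (hk : k < 4096) (hl : l < 4096)
    (e : pw (get24 CA k) = pw (get24 CA l)) : k = l := by
  have h1 := Nat.eq_of_beq_eq_true (allB_spec k_psys k hk)
  have h2 := Nat.eq_of_beq_eq_true (allB_spec k_psys l hl)
  rw [← h1, ← h2, pw_mask e]

theorem ncard_punct_weight (w : ℕ) :
    {u : ZMod 23 → ZMod 2 | u ∈ punctCode ∧ hammingNorm u = w}.ncard
      = cntC 4096 (fun k => Nat.beq (popc (Nat.land (get24 CA k) 8388607)) w) := by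
  apply ncard_eq_cntC_of_inj (fun k => pw (get24 CA k)) 4096 pw_inj
  intro s
  constructor
  · rintro ⟨hs, hw⟩
    obtain ⟨k, hk, rfl⟩ := (mem_punct_iff s).mp hs
    refine ⟨k, hk, ?_, rfl⟩
    rw [Nat.beq_eq, ← hammingNorm_pw, hw]
  · rintro ⟨k, hk, hf, rfl⟩
    exact ⟨(mem_punct_iff _).mpr ⟨k, hk, rfl⟩, by
      rw [hammingNorm_pw]; exact Nat.eq_of_beq_eq_true hf⟩

theorem ncard_punct_eq : punctCode.ncard = cntC 4096 (fun _ => true) := by
  apply ncard_eq_cntC_of_inj (fun k => pw (get24 CA k)) 4096 pw_inj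
  intro s
  rw [mem_punct_iff]
  constructor
  · rintro ⟨k, hk, e⟩; exact ⟨k, hk, rfl, e⟩
  · rintro ⟨k, hk, -, e⟩; exact ⟨k, hk, e⟩

theorem k_pall : cntC 4096 (fun _ => true) = 4096 := by decide +kernel
theorem k_p7 : cntC 4096 (fun k => Nat.beq (popc (Nat.land (get24 CA k) 8388607)) 7) = 253 := by
  decide +kernel
theorem k_p8 : cntC 4096 (fun k => Nat.beq (popc (Nat.land (get24 CA k) 8388607)) 8) = 506 := by
  decide +kernel
theorem k_p11 : cntC 4096 (fun k => Nat.beq (popc (Nat.land (get24 CA k) 8388607)) 11) = 1288 := by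
  decide +kernel
theorem k_p12 : cntC 4096 (fun k => Nat.beq (popc (Nat.land (get24 CA k) 8388607)) 12) = 1288 := by
  decide +kernel
theorem k_p15 : cntC 4096 (fun k => Nat.beq (popc (Nat.land (get24 CA k) 8388607)) 15) = 506 := by
  decide +kernel
theorem k_p16 : cntC 4096 (fun k => Nat.beq (popc (Nat.land (get24 CA k) 8388607)) 16) = 253 := by
  decide +kernel
theorem k_pmin : allB 4096 (fun k => Nat.beq k 0 ||
    Nat.ble 7 (popc (Nat.land (get24 CA k) 8388607))) = true := by decide +kernel

theorem pw_zero : pw 0 = 0 := by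
  funext x
  show wordOf 0 (some x) = 0
  rw [wordOf_zero]; rfl

theorem punct_min_weight {u : ZMod 23 → ZMod 2} (hu : u ∈ punctCode) (h0 : u ≠ 0) :
    7 ≤ hammingNorm u := by
  obtain ⟨k, hk, rfl⟩ := (mem_punct_iff u).mp hu
  have h := allB_spec k_pmin k hk
  rw [Bool.or_eq_true, Nat.beq_eq] at h
  rcases h with h | h
  · exfalso; apply h0; rw [h, CA_zero, pw_zero]
  · rw [hammingNorm_pw]; exact Nat.le_of_ble_eq_true h

theorem punct_sub_mem {u v : ZMod 23 → ZMod 2} (hu : u ∈ punctCode) (hv : v ∈ punctCode) :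
    u - v ∈ punctCode := by
  obtain ⟨w, hw, h⟩ := hu
  obtain ⟨w', hw', h'⟩ := hv
  exact ⟨w - w', sub_mem hw hw', fun x => by
    show u x - v x = w (some x) - w' (some x)
    rw [h x, h' x]⟩

/-! ## Perfection -/

theorem punct_eq_of_close {c c' : ZMod 23 → ZMod 2} (hc : c ∈ punctCode) (hc' : c' ∈ punctCode)
    (h : hammingDist c c' ≤ 6) : c = c' := by
  by_contra hne
  have h1 := punct_min_weight (punct_sub_mem hc hc') (sub_ne_zero.mpr hne)
  rw [← neg_add_eq_sub, ← hammingDist_eq_hammingNorm, hammingDist_comm] at h1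
  omega

theorem card_ball3 :
    (Finset.univ.filter (fun e : ZMod 23 → ZMod 2 => hammingNorm e ≤ 3)).card = 2048 := by
  classical
  have h1 : (Finset.univ.filter (fun e : ZMod 23 → ZMod 2 => hammingNorm e ≤ 3)).card
      = ((Finset.univ : Finset (Finset (ZMod 23))).filter (fun s => s.card ≤ 3)).card := by
    apply Finset.card_nbij' (fun e => Finset.univ.filter (fun x => e x ≠ 0))
      (fun s => fun x => if x ∈ s then (1 : ZMod 2) else 0)
    · intro e he
      rw [Finset.mem_coe, Finset.mem_filter] at he ⊢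
      exact ⟨Finset.mem_univ _, he.2⟩
    · intro s hs
      rw [Finset.mem_coe, Finset.mem_filter] at hs ⊢
      refine ⟨Finset.mem_univ _, ?_⟩
      have : (Finset.univ.filter (fun x : ZMod 23 => (if x ∈ s then (1 : ZMod 2) else 0) ≠ 0)) = s := by
        ext x
        rw [Finset.mem_filter]
        by_cases hx : x ∈ s
        · simp [hx]
        · simp [hx]
      show (Finset.univ.filter (fun x : ZMod 23 => (if x ∈ s then (1 : ZMod 2) else 0) ≠ 0)).card ≤ 3
      rw [this]; exact hs.2
    · intro e _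
      funext x
      have key : ∀ a : ZMod 2, (if a ≠ 0 then (1 : ZMod 2) else 0) = a := by decide
      simp only [Finset.mem_filter, Finset.mem_univ, true_and]
      exact key (e x)
    · intro s _
      ext x
      rw [Finset.mem_filter]
      by_cases hx : x ∈ s
      · simp [hx]
      · simp [hx]
  rw [h1]
  have h2 : ((Finset.univ : Finset (Finset (ZMod 23))).filter (fun s => s.card ≤ 3))
      = (Finset.range 4).biUnion (fun j => Finset.powersetCard j (Finset.univ : Finset (ZMod 23))) := by
    ext s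
    simp only [Finset.mem_filter, Finset.mem_univ, true_and, Finset.mem_biUnion, Finset.mem_range,
      Finset.mem_powersetCard, Finset.subset_univ]
    constructor
    · intro h; exact ⟨s.card, by omega, rfl⟩
    · rintro ⟨j, hj, e⟩; omega
  rw [h2, Finset.card_biUnion]
  · simp only [Finset.card_powersetCard, Finset.card_univ, ZMod.card]
    decide
  · intro i _ j _ hij
    exact Finset.pairwise_disjoint_powersetCard _ hij

theorem punct_perfect (u : ZMod 23 → ZMod 2) : ∃ c ∈ punctCode, hammingDist u c ≤ 3 := by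
  classical
  let f : ↥punctCode × {e : ZMod 23 → ZMod 2 // hammingNorm e ≤ 3} → (ZMod 23 → ZMod 2) :=
    fun p => p.1.1 + p.2.1
  have hinj : Function.Injective f := by
    rintro ⟨⟨c, hc⟩, ⟨e, he⟩⟩ ⟨⟨c', hc'⟩, ⟨e', he'⟩⟩ h
    have h' : c + e = c' + e' := h
    have h1 : c' - c = e - e' := by
      rw [sub_eq_sub_iff_add_eq_add, ← h', add_comm]
    have h2 : hammingDist c c' ≤ 6 := by
      rw [hammingDist_eq_hammingNorm, neg_add_eq_sub, h1, ← neg_add_eq_sub,
        ← hammingDist_eq_hammingNorm]
      have h3 := hammingDist_triangle e' 0 e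
      rw [hammingDist_zero_right, hammingDist_zero_left] at h3
      omega
    have hcc : c = c' := punct_eq_of_close hc hc' h2
    subst hcc
    have hee : e = e' := add_left_cancel h'
    subst hee
    rfl
  have hcard : Nat.card (ZMod 23 → ZMod 2)
      ≤ Nat.card (↥punctCode × {e : ZMod 23 → ZMod 2 // hammingNorm e ≤ 3}) := by
    rw [Nat.card_prod, Nat.card_coe_set_eq, ncard_punct_eq, k_pall, Nat.card_eq_fintype_card,
      Nat.card_eq_fintype_card, Fintype.card_subtype, card_ball3, Fintype.card_fun, ZMod.card,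
      ZMod.card]
    norm_num
  obtain ⟨⟨⟨c, hc⟩, ⟨e, he⟩⟩, h⟩ := (hinj.bijective_of_nat_card_le hcard).2 u
  have h' : c + e = u := h
  refine ⟨c, hc, ?_⟩
  rw [hammingDist_comm, hammingDist_eq_hammingNorm, ← h', neg_add_cancel_left]
  exact he

end Cfsg.Agent.Helper12
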