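import Cfsg.Agent.Helper12.OutM4
import Cfsg.Agent.Helper3.MathieuPerfect

set_option autoImplicit false
open Cfsg

namespace Cfsg.Agent.H12L23

open Cfsg.Agent.Helper3 Cfsg.Agent.H12Out
open scoped Pointwise

/-- the shift `x ↦ x + 1` -/
abbrev tS : Equiv.Perm GolayPt := Equiv.optionCongr (Equiv.addRight (1 : ZMod 23))

/-- `x ↦ -x` -/
def negP : Equiv.Perm GolayPt := Equiv.optionCongr (Equiv.neg (ZMod 23))

/-- the maps `x ↦ u x` for squares `u` -/
def SqSet : Set (Equiv.Perm GolayPt) :=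
  {g | ∃ u : (ZMod 23)ˣ, IsSquare u ∧ g = Equiv.optionCongr (Units.mulLeft u)}

/-- the group `L₂(23)` of the statement -/
def Lg : Subgroup (Equiv.Perm GolayPt) := Subgroup.closure ({tS, projInv} ∪ SqSet)

/-- its point stabiliser `23:11` -/
def Bg : Subgroup (Equiv.Perm GolayPt) := Subgroup.closure ({tS} ∪ SqSet)

theorem tS_mem : tS ∈ M24 := gShift_mem_M24

theorem SqSet_le : SqSet ⊆ (M24 : Set (Equiv.Perm GolayPt)) := by
  rintro g ⟨u, hu, rfl⟩
  exact mulSq_mem_M24 u hu

theorem Lg_le : Lg ≤ M24 := by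
  unfold Lg
  rw [Subgroup.closure_le]
  rintro g (hg | hg)
  · rcases hg with rfl | rfl
    · exact tS_mem
    · exact projInv_mem_M24
  · exact SqSet_le hg

theorem Bg_le_Lg : Bg ≤ Lg := by
  unfold Bg Lg
  apply Subgroup.closure_mono
  rintro g (hg | hg)
  · exact Or.inl (Or.inl hg)
  · exact Or.inr hg

theorem tS_none : tS none = none := rfl

theorem tS_some (x : ZMod 23) : tS (some x) = some (x + 1) := rfl

theorem tS_pow_none (k : ℕ) : (tS ^ k) none = none := by
  induction k with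
  | zero => rfl
  | succ k ih => rw [pow_succ, Equiv.Perm.mul_apply, tS_none, ih]

theorem tS_pow_some (k : ℕ) (x : ZMod 23) : (tS ^ k) (some x) = some (x + k) := by
  induction k generalizing x with
  | zero => simp
  | succ k ih =>
    rw [pow_succ, Equiv.Perm.mul_apply, tS_some, ih]
    congr 1
    push_cast
    ring

theorem tS_pow23 : tS ^ 23 = 1 := Equiv.ext fun p => by
  cases p with
  | none => exact tS_pow_none 23
  | some x =>
    have h23 : ((23 : ℕ) : ZMod 23) = 0 := by decide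
    rw [tS_pow_some, h23, add_zero]
    rfl

theorem tS_ne_one : tS ≠ 1 := fun h =>
  absurd (congrArg (fun f : Equiv.Perm GolayPt => f (some 0)) h) (by decide)

theorem tS_order : orderOf tS = 23 := by
  have : Fact (Nat.Prime 23) := ⟨by norm_num⟩
  exact orderOf_eq_prime tS_pow23 tS_ne_one

/-! ### the element `x ↦ 2 x` -/

theorem g12_some : ∀ x : ZMod 23, g12 (some x) = some (2 * x) := by decide +kernel

theorem g12_none : g12 none = none := by decide +kernel

theorem g12_pow_none (k : ℕ) : (g12 ^ k) none = none := by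
  induction k with
  | zero => rfl
  | succ k ih => rw [pow_succ, Equiv.Perm.mul_apply, g12_none, ih]

theorem g12_pow_some (k : ℕ) (x : ZMod 23) : (g12 ^ k) (some x) = some (2 ^ k * x) := by
  induction k generalizing x with
  | zero => simp
  | succ k ih => rw [pow_succ, Equiv.Perm.mul_apply, g12_some, ih, pow_succ, mul_assoc]

theorem g12_pow11 : g12 ^ 11 = 1 := Equiv.ext g12_pow

theorem g12_order : orderOf g12 = 11 := by
  have : Fact (Nat.Prime 11) := ⟨by norm_num⟩
  exact orderOf_eq_prime g12_pow11 (fun h => g12_ne (by rw [h]; rfl))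

theorem sq_cases : ∀ r : ZMod 23, r ≠ 0 → ∃ j : Fin 11, r * r = 2 ^ j.val := by decide +kernel

theorem sq_or : ∀ e : ZMod 23, e ≠ 0 →
    (∃ j : Fin 11, e = 2 ^ j.val) ∨ (∃ j : Fin 11, -e = 2 ^ j.val) := by decide +kernel

theorem sq_pow (u : (ZMod 23)ˣ) (hu : IsSquare u) :
    ∃ j : Fin 11, (Equiv.optionCongr (Units.mulLeft u) : Equiv.Perm GolayPt) = g12 ^ j.val := by
  obtain ⟨v, rfl⟩ := hu
  have hv : (v : ZMod 23) ≠ 0 := by
    intro h
    have h1 := v.mul_inv
    rw [h, zero_mul] at h1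
    exact absurd h1 (by decide)
  obtain ⟨j, hj⟩ := sq_cases (v : ZMod 23) hv
  refine ⟨j, Equiv.ext fun p => ?_⟩
  cases p with
  | none => exact (g12_pow_none _).symm
  | some x =>
    rw [g12_pow_some, ← hj]
    show some (((v * v : (ZMod 23)ˣ) : ZMod 23) * x) = some ((v : ZMod 23) * v * x)
    rw [Units.val_mul]

theorem g12_sq : g12 ∈ SqSet := by
  refine ⟨⟨2, 12, by decide, by decide⟩, ⟨⟨5, 14, by decide, by decide⟩, Units.ext (by decide)⟩, ?_⟩
  exact Equiv.ext (by decide +kernel)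

theorem g12_mem_Bg : g12 ∈ Bg := Subgroup.subset_closure (Or.inr g12_sq)

theorem tS_mem_Bg : tS ∈ Bg := Subgroup.subset_closure (Or.inl rfl)

/-! ### negation is not in `M24` -/

theorem negP_not_mem : negP ∉ M24 := by
  intro h
  rw [mem_M24_iff] at h
  have hw : Helper12.wordOf 5279 ∈ golayCode :=
    (Helper12.wordOf_mem_iff (by norm_num)).mpr (by decide +kernel)
  have h2 := h _ hw
  have e : Helper12.wordOf 5279 ∘ negP = Helper12.wordOf 7940097 := by
    funext p
    revert p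
    decide +kernel
  rw [e, Helper12.wordOf_mem_iff (by norm_num)] at h2
  revert h2
  decide +kernel

/-! ### the normaliser of the shift -/

theorem norm_t {h : Equiv.Perm GolayPt} (hh : h ∈ M24)
    (hn : h * tS * h⁻¹ ∈ Subgroup.zpowers tS) :
    ∃ c : ℕ, c < 23 ∧ ∃ j : ℕ, j < 11 ∧ h = tS ^ c * g12 ^ j := by
  rw [← mem_powers_iff_mem_zpowers] at hn
  obtain ⟨k, hk⟩ := hn
  have hk0 : tS ^ k = h * tS * h⁻¹ := hk
  have hk' : tS ^ k * h = h * tS := by
    rw [hk0]; group
  have hap : ∀ p, (tS ^ k) (h p) = h (tS p) := fun p =>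
    congrArg (fun f : Equiv.Perm GolayPt => f p) hk'
  have he : ((k : ℕ) : ZMod 23) ≠ 0 := by
    intro h0
    have h1 : tS ^ k = 1 := Equiv.ext fun p => by
      cases p with
      | none => exact tS_pow_none k
      | some x => rw [tS_pow_some, h0, add_zero]; rfl
    have h2 : h * tS * h⁻¹ = 1 := by rw [← hk0]; exact h1
    have h3 : tS = 1 := by
      have h4 : tS = h⁻¹ * (h * tS * h⁻¹) * h := by group
      rw [h4, h2]; group
    exact tS_ne_one h3
  have hnone : h none = none := by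
    have h1 := hap none
    rw [tS_none] at h1
    cases hy : h none with
    | none => rfl
    | some y =>
      rw [hy, tS_pow_some] at h1
      have h2 : y + (k : ZMod 23) = y + 0 := by rw [add_zero]; exact Option.some.inj h1
      exact absurd (add_left_cancel h2) he
  obtain ⟨c, hc⟩ : ∃ c, h (some 0) = some c := by
    cases hy : h (some 0) with
    | none => exact absurd (h.injective (hy.trans hnone.symm)) (Option.some_ne_none _)
    | some c => exact ⟨c, rfl⟩
  have hlin : ∀ m : ℕ, h (some (m : ZMod 23)) = some (c + (k : ZMod 23) * m) := by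
    intro m
    induction m with
    | zero => simp [hc]
    | succ m ih =>
      have h1 := hap (some (m : ZMod 23))
      rw [tS_some, ih, tS_pow_some] at h1
      rw [Nat.cast_succ, ← h1]
      congr 1
      ring
  have hall : ∀ x : ZMod 23, h (some x) = some (c + (k : ZMod 23) * x) := by
    intro x
    have := hlin x.val
    rwa [ZMod.natCast_zmod_val] at this
  rcases sq_or _ he with ⟨j, hj⟩ | ⟨j, hj⟩
  · refine ⟨c.val, ZMod.val_lt c, j.val, j.2, Equiv.ext fun p => ?_⟩
    cases p with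
    | none => rw [Equiv.Perm.mul_apply, g12_pow_none, tS_pow_none, hnone]
    | some x =>
      rw [Equiv.Perm.mul_apply, g12_pow_some, tS_pow_some, hall, ← hj, ZMod.natCast_zmod_val]
      congr 1
      ring
  · exfalso
    apply negP_not_mem
    have e2 : h = tS ^ c.val * negP * g12 ^ j.val := Equiv.ext fun p => by
      cases p with
      | none =>
        rw [Equiv.Perm.mul_apply, Equiv.Perm.mul_apply, g12_pow_none]
        show h none = (tS ^ c.val) none
        rw [tS_pow_none, hnone]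
      | some x =>
        rw [Equiv.Perm.mul_apply, Equiv.Perm.mul_apply, g12_pow_some]
        show h (some x) = (tS ^ c.val) (some (-(2 ^ j.val * x)))
        rw [tS_pow_some, hall, ← hj, ZMod.natCast_zmod_val]
        congr 1
        ring
    have e : negP = (tS ^ c.val)⁻¹ * h * (g12 ^ j.val)⁻¹ := by
      rw [e2]; group
    rw [e]
    exact mul_mem (mul_mem (inv_mem (pow_mem tS_mem _)) hh) (inv_mem (pow_mem g12_mem _))

/-! ### the centraliser of `x ↦ 2 x` -/

theorem g12_pows : ∀ k : Fin 11, (g12 ^ k.val) (pt 1) = pt (2 ^ k.val % 23) ∧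
    (g12 ^ k.val) (pt 5) = pt (5 * 2 ^ k.val % 23) := by decide +kernel

theorem orbit_cases : ∀ p : GolayPt, p = pt 23 ∨ p = pt 0 ∨
    (∃ k : Fin 11, p = (g12 ^ k.val) (pt 1)) ∨ (∃ k : Fin 11, p = (g12 ^ k.val) (pt 5)) := by
  decide +kernel

theorem comm_pow {h g : Equiv.Perm GolayPt} (hc : h * g = g * h) (k : ℕ) (p : GolayPt) :
    h ((g ^ k) p) = (g ^ k) (h p) := by
  have h1 : Commute h (g ^ k) := (show Commute h g from hc).pow_right k
  exact congrArg (fun f : Equiv.Perm GolayPt => f p) h1.eq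

theorem card_orb1 : ((Finset.univ : Finset (Fin 11)).image
    (fun k : Fin 11 => (g12 ^ k.val) (pt 1))).card = 11 := by decide +kernel

theorem cent_fix {h : Equiv.Perm GolayPt} (hh : h ∈ M24) (hc : h * g12 = g12 * h)
    (h1 : h (pt 1) = pt 1) : h = 1 := by
  apply fix9_trivial hh
  have hsub : (Finset.univ : Finset (Fin 11)).image (fun k : Fin 11 => (g12 ^ k.val) (pt 1)) ⊆
      fixF h := by
    intro p hp
    rw [Finset.mem_image] at hp
    obtain ⟨k, -, rfl⟩ := hp
    rw [mem_fixF, comm_pow hc, h1]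
  have h2 := Finset.card_le_card hsub
  rw [card_orb1] at h2
  omega

theorem apply_mem_smul {h : Equiv.Perm GolayPt} {s : Finset GolayPt} {a b : GolayPt}
    (ha : a ∈ s) (hb : h a = b) : b ∈ h • s := by
  rw [← hb]
  exact Finset.smul_mem_smul_finset ha

theorem cent_swap {h : Equiv.Perm GolayPt} (hh : h ∈ M24) (hc : h * g12 = g12 * h)
    (h1 : h (pt 1) = pt 5) : False := by
  have hv : ∀ k : Fin 11, h (pt (2 ^ k.val % 23)) = pt (5 * 2 ^ k.val % 23) := by
    intro k
    rw [← (g12_pows k).1, comm_pow hc, h1, (g12_pows k).2]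
  have v2 : h (pt 2) = pt 10 := by simpa using hv ⟨1, by norm_num⟩
  have v3 : h (pt 3) = pt 15 := by simpa using hv ⟨8, by norm_num⟩
  have v4 : h (pt 4) = pt 20 := by simpa using hv ⟨2, by norm_num⟩
  have v12 : h (pt 12) = pt 14 := by simpa using hv ⟨10, by norm_num⟩
  have v8 : h (pt 8) = pt 17 := by simpa using hv ⟨3, by norm_num⟩
  have hO : gSup 5279 ∈ octads := gSup_mem_octads (by decide +kernel) (by decide +kernel)
  have hO' : gSup 1230376 ∈ octads := gSup_mem_octads (by decide +kernel) (by decide +kernel)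
  have hhO : h • gSup 5279 ∈ octads := smul_mem_octads hh hO
  have heq : h • gSup 5279 = gSup 1230376 := by
    apply octad_eq_of_inter hhO hO'
    have hsub : ({pt 5, pt 10, pt 15, pt 20, pt 14} : Finset GolayPt) ⊆
        h • gSup 5279 ∩ gSup 1230376 := by
      intro p hp
      simp only [Finset.mem_insert, Finset.mem_singleton] at hp
      rw [Finset.mem_inter]
      rcases hp with rfl | rfl | rfl | rfl | rfl
      · exact ⟨apply_mem_smul (by decide +kernel) h1, by decide +kernel⟩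
      · exact ⟨apply_mem_smul (by decide +kernel) v2, by decide +kernel⟩
      · exact ⟨apply_mem_smul (by decide +kernel) v3, by decide +kernel⟩
      · exact ⟨apply_mem_smul (by decide +kernel) v4, by decide +kernel⟩
      · exact ⟨apply_mem_smul (by decide +kernel) v12, by decide +kernel⟩
    have hc5 : ({pt 5, pt 10, pt 15, pt 20, pt 14} : Finset GolayPt).card = 5 := by
      decide +kernel
    have h5 := Finset.card_le_card hsub
    omega
  have h17 : pt 17 ∈ h • gSup 5279 := by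
    rw [heq]
    decide +kernel
  rw [Finset.mem_smul_finset] at h17
  obtain ⟨p, hp, hp'⟩ := h17
  have hp8 : p = pt 8 := h.injective (hp'.trans v8.symm)
  rw [hp8] at hp
  revert hp
  decide +kernel

theorem g12_23 : g12 (pt 23) = pt 23 := by decide +kernel

theorem cent_g {h : Equiv.Perm GolayPt} (hh : h ∈ M24) (hc : h * g12 = g12 * h) :
    h ∈ Subgroup.zpowers g12 := by
  have hcomm : ∀ k : ℕ, ((g12 ^ k)⁻¹ * h) * g12 = g12 * ((g12 ^ k)⁻¹ * h) := fun k =>
    (((Commute.refl g12).pow_left k).inv_left.mul_left (show Commute h g12 from hc)).eq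
  have hmem : ∀ k : ℕ, (g12 ^ k)⁻¹ * h ∈ M24 := fun k =>
    mul_mem (inv_mem (pow_mem g12_mem _)) hh
  rcases orbit_cases (h (pt 1)) with e | e | ⟨k, e⟩ | ⟨k, e⟩
  · exfalso
    have h2 : h (g12 (pt 1)) = g12 (h (pt 1)) :=
      congrArg (fun f : Equiv.Perm GolayPt => f (pt 1)) hc
    rw [e, g12_23, ← e] at h2
    exact g12_ne (h.injective h2)
  · exfalso
    have h2 : h (g12 (pt 1)) = g12 (h (pt 1)) :=
      congrArg (fun f : Equiv.Perm GolayPt => f (pt 1)) hc
    rw [e, g12_pt0, ← e] at h2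
    exact g12_ne (h.injective h2)
  · have hm : (g12 ^ k.val)⁻¹ * h = 1 := by
      apply cent_fix (hmem _) (hcomm _)
      rw [Equiv.Perm.mul_apply, e]
      exact perm_inv_apply _ _
    have e2 : h = g12 ^ k.val := by
      have h4 : h = g12 ^ k.val * ((g12 ^ k.val)⁻¹ * h) := by group
      rw [h4, hm, mul_one]
    rw [e2]
    exact Subgroup.pow_mem _ (Subgroup.mem_zpowers _) _
  · exfalso
    apply cent_swap (hmem k.val) (hcomm _)
    rw [Equiv.Perm.mul_apply, e]
    exact perm_inv_apply _ _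

theorem zp_fix {x : Equiv.Perm GolayPt} (hx : x ∈ Subgroup.zpowers g12) : x (pt 23) = pt 23 := by
  have hle : Subgroup.zpowers g12 ≤ MulAction.stabilizer (Equiv.Perm GolayPt) (pt 23) := by
    rw [Subgroup.zpowers_le]
    exact g12_23
  exact hle hx

/-! ### the normaliser of `x ↦ 2 x` in `M23` -/

theorem ujg : ∀ j : Fin 5, ∀ p : GolayPt,
    (u12 ^ j.val)⁻¹ (g12 ((u12 ^ j.val) p)) = (g12 ^ (4 ^ j.val % 11)) p := by decide +kernel

theorem ujg' (j : Fin 5) : (u12 ^ j.val)⁻¹ * g12 * u12 ^ j.val = g12 ^ (4 ^ j.val % 11) :=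
  Equiv.ext (ujg j)

theorem upow_fix : ∀ j : Fin 5, (u12 ^ j.val)⁻¹ (pt 23) = pt 23 := by decide +kernel

theorem ng10 : projInv * g12 ^ 10 = g12 * projInv :=
  Equiv.ext (by decide +kernel)

theorem projInv_23 : projInv (pt 23) = pt 0 := by decide +kernel

theorem pt_0_ne_23 : pt 0 ≠ pt 23 := by decide +kernel

theorem pow_mod11 (m : ℕ) : g12 ^ m = g12 ^ (m % 11) := pow_eq_pow_mod m g12_pow11

theorem arith11 : ∀ e : Fin 11, e.val ≠ 0 → ∃ j : Fin 5,
    (4 ^ j.val % 11 * e.val) % 11 = 1 ∨ (4 ^ j.val % 11 * e.val) % 11 = 10 := by decide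

theorem norm_g {h : Equiv.Perm GolayPt} (hh : h ∈ M24) (h23 : h (pt 23) = pt 23)
    (hn : h * g12 * h⁻¹ ∈ Subgroup.zpowers g12) :
    ∃ j : ℕ, j < 5 ∧ ∃ i : ℕ, i < 11 ∧ h = u12 ^ j * g12 ^ i := by
  rw [← mem_powers_iff_mem_zpowers] at hn
  obtain ⟨e0, he0⟩ := hn
  have he0' : g12 ^ e0 = h * g12 * h⁻¹ := he0
  have he : g12 ^ (e0 % 11) = h * g12 * h⁻¹ := by rw [← pow_mod11]; exact he0'
  have hne : e0 % 11 ≠ 0 := by
    intro h0
    rw [h0, pow_zero] at he
    have h3 : g12 = 1 := by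
      have h4 : g12 = h⁻¹ * (h * g12 * h⁻¹) * h := by group
      rw [h4, ← he]; group
    exact g12_ne (by rw [h3]; rfl)
  obtain ⟨j, hj⟩ := arith11 ⟨e0 % 11, Nat.mod_lt _ (by norm_num)⟩ hne
  have hconj : ((u12 ^ j.val)⁻¹ * h) * g12 * ((u12 ^ j.val)⁻¹ * h)⁻¹ =
      g12 ^ (4 ^ j.val % 11 * (e0 % 11)) := by
    have e1 : ((u12 ^ j.val)⁻¹ * h) * g12 * ((u12 ^ j.val)⁻¹ * h)⁻¹ =
        (u12 ^ j.val)⁻¹ * (h * g12 * h⁻¹) * (u12 ^ j.val) := by group
    rw [e1, ← he, pow_mul, ← ujg' j]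
    have h5 := conj_pow (a := (u12 ^ j.val)⁻¹) (b := g12) (i := e0 % 11)
    rw [inv_inv] at h5
    exact h5.symm
  have hm1 : (u12 ^ j.val)⁻¹ * h ∈ M24 := mul_mem (inv_mem (pow_mem u12_mem _)) hh
  have hf1 : ((u12 ^ j.val)⁻¹ * h) (pt 23) = pt 23 := by
    rw [Equiv.Perm.mul_apply, h23]
    exact upow_fix j
  rw [pow_mod11] at hconj
  rcases hj with hj | hj
  · have hj' : (4 ^ j.val % 11 * (e0 % 11)) % 11 = 1 := hj
    rw [hj', pow_one] at hconj
    have hc : ((u12 ^ j.val)⁻¹ * h) * g12 = g12 * ((u12 ^ j.val)⁻¹ * h) := by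
      have h6 : ((u12 ^ j.val)⁻¹ * h) * g12 =
          (((u12 ^ j.val)⁻¹ * h) * g12 * ((u12 ^ j.val)⁻¹ * h)⁻¹) * ((u12 ^ j.val)⁻¹ * h) := by
        group
      rw [h6, hconj]
    have hz := cent_g hm1 hc
    rw [← mem_powers_iff_mem_zpowers] at hz
    obtain ⟨i, hi⟩ := hz
    have hi' : g12 ^ i = (u12 ^ j.val)⁻¹ * h := hi
    refine ⟨j.val, j.2, i % 11, Nat.mod_lt _ (by norm_num), ?_⟩
    rw [← pow_mod11, hi']
    group
  · exfalso
    have hj' : (4 ^ j.val % 11 * (e0 % 11)) % 11 = 10 := hj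
    rw [hj'] at hconj
    have hc1 : ((u12 ^ j.val)⁻¹ * h) * g12 = g12 ^ 10 * ((u12 ^ j.val)⁻¹ * h) := by
      have h6 : ((u12 ^ j.val)⁻¹ * h) * g12 =
          (((u12 ^ j.val)⁻¹ * h) * g12 * ((u12 ^ j.val)⁻¹ * h)⁻¹) * ((u12 ^ j.val)⁻¹ * h) := by
        group
      rw [h6, hconj]
    have hc : (projInv * ((u12 ^ j.val)⁻¹ * h)) * g12 =
        g12 * (projInv * ((u12 ^ j.val)⁻¹ * h)) := by
      rw [mul_assoc, hc1, ← mul_assoc, ng10, mul_assoc]
    have hz := zp_fix (cent_g (mul_mem projInv_mem_M24 hm1) hc)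
    rw [Equiv.Perm.mul_apply, hf1, projInv_23] at hz
    exact pt_0_ne_23 hz

end Cfsg.Agent.H12L23
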