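import Cfsg.Agent.Helper12.L23a

set_option autoImplicit false
open Cfsg

namespace Cfsg.Agent.H12L23

open Cfsg.Agent.Helper3 Cfsg.Agent.H12Out
open scoped Pointwise

/-! ### an invariant of `L₂(23)` -/

/-- nonzero squares modulo 23 -/
def isSqB (x : ZMod 23) : Bool := Nat.testBit 340830 x.val

/-- a ternary relation on the projective line preserved by `L₂(23)` -/
def Tb : GolayPt → GolayPt → GolayPt → Bool
  | none, some b, some c => isSqB (c - b)
  | some a, none, some c => isSqB (a - c)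
  | some a, some b, none => isSqB (b - a)
  | some a, some b, some c => isSqB ((a - b) * (b - c) * (c - a))
  | _, _, _ => false

/-- preserving the relation -/
def Pres (f : Equiv.Perm GolayPt) : Prop :=
  ∀ a b c : GolayPt, Tb (f a) (f b) (f c) = Tb a b c

theorem pres_t : Pres tS := by unfold Pres; decide +kernel

theorem pres_n : Pres projInv := by unfold Pres; decide +kernel

theorem pres_g : Pres g12 := by unfold Pres; decide +kernel

theorem pres_one : Pres 1 := fun _ _ _ => rfl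

theorem pres_mul {f g : Equiv.Perm GolayPt} (hf : Pres f) (hg : Pres g) : Pres (f * g) :=
  fun a b c => by
    show Tb (f (g a)) (f (g b)) (f (g c)) = Tb a b c
    rw [hf, hg]

theorem pres_inv {f : Equiv.Perm GolayPt} (hf : Pres f) : Pres f⁻¹ := fun a b c => by
  have h := hf (f⁻¹ a) (f⁻¹ b) (f⁻¹ c)
  rw [perm_apply_inv, perm_apply_inv, perm_apply_inv] at h
  exact h.symm

theorem pres_pow {f : Equiv.Perm GolayPt} (hf : Pres f) (k : ℕ) : Pres (f ^ k) := by
  induction k with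
  | zero => rw [pow_zero]; exact pres_one
  | succ k ih => rw [pow_succ]; exact pres_mul ih hf

theorem pres_Lg : ∀ f ∈ Lg, Pres f := by
  intro f hf
  unfold Lg at hf
  induction hf using Subgroup.closure_induction with
  | mem x hx =>
    rcases hx with hx | hx
    · rcases hx with rfl | rfl
      · exact pres_t
      · exact pres_n
    · obtain ⟨u, hu, rfl⟩ := hx
      obtain ⟨j, hj⟩ := sq_pow u hu
      rw [hj]
      exact pres_pow pres_g _
  | one => exact pres_one
  | mul x y _ _ hx hy => exact pres_mul hx hy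
  | inv x _ hx => exact pres_inv hx

theorem u12_not_pres : ¬ Pres u12 := fun h =>
  absurd (h (pt 0) (pt 1) (pt 2)) (by decide +kernel)

theorem u12_notMem_Lg : u12 ∉ Lg := fun h => u12_not_pres (pres_Lg _ h)

/-! ### cardinalities -/

theorem card_le_of_param {ι : Type} [Finite ι] (K : Subgroup (Equiv.Perm GolayPt))
    (f : ι → Equiv.Perm GolayPt) (h : ∀ x ∈ K, ∃ i, f i = x) : Nat.card K ≤ Nat.card ι := by
  classical
  choose φ hφ using fun x : K => h x.1 x.2
  apply Nat.card_le_card_of_injective φ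
  intro x y hxy
  apply Subtype.ext
  rw [← hφ x, ← hφ y, hxy]

theorem mem_normalizer_zpowers {G : Type*} [Group G] (a x : G) (m n : ℕ)
    (h1 : a * x * a⁻¹ = x ^ m) (h2 : a⁻¹ * x * a = x ^ n) :
    a ∈ Subgroup.normalizer ((Subgroup.zpowers x : Subgroup G) : Set G) := by
  rw [Subgroup.mem_normalizer_iff]
  intro y
  constructor
  · intro hy
    rw [Subgroup.mem_zpowers_iff] at hy
    obtain ⟨k, rfl⟩ := hy
    rw [← conj_zpow, h1]
    exact Subgroup.zpow_mem _ (Subgroup.pow_mem _ (Subgroup.mem_zpowers x) m) k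
  · intro hy
    rw [Subgroup.mem_zpowers_iff] at hy
    obtain ⟨k, hk⟩ := hy
    have e : (a⁻¹ * x * a) ^ k = a⁻¹ * x ^ k * a := by
      have h3 := conj_zpow (a := a⁻¹) (b := x) (i := k)
      rwa [inv_inv] at h3
    have hy' : y = (a⁻¹ * x * a) ^ k := by
      rw [e, hk]; group
    rw [hy', h2]
    exact Subgroup.zpow_mem _ (Subgroup.pow_mem _ (Subgroup.mem_zpowers x) n) k

theorem gt2 : g12 * tS * g12⁻¹ = tS ^ 2 := Equiv.ext (by decide +kernel)

theorem gt12 : g12⁻¹ * tS * g12 = tS ^ 12 := Equiv.ext (by decide +kernel)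

theorem ug3 : u12 * g12 * u12⁻¹ = g12 ^ 3 := Equiv.ext (by decide +kernel)

theorem ug4 : u12⁻¹ * g12 * u12 = g12 ^ 4 := Equiv.ext (by decide +kernel)

theorem u12_pow5 : u12 ^ 5 = 1 := Equiv.ext (by decide +kernel)

theorem u12_order : orderOf u12 = 5 := by
  have : Fact (Nat.Prime 5) := ⟨by norm_num⟩
  exact orderOf_eq_prime u12_pow5 (fun h =>
    absurd (congrArg (fun f : Equiv.Perm GolayPt => f (pt 2)) h) (by decide +kernel))

theorem u12_23 : u12 (pt 23) = pt 23 := by decide +kernel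

theorem order_dvd_card {K : Subgroup (Equiv.Perm GolayPt)} {a : Equiv.Perm GolayPt}
    (ha : a ∈ K) : orderOf a ∣ Nat.card K := by
  have h := orderOf_dvd_natCard (⟨a, ha⟩ : K)
  rwa [Subgroup.orderOf_mk] at h

/-- the normaliser of `x ↦ 2 x` in `M23` -/
def N11 : Subgroup (Equiv.Perm GolayPt) := Subgroup.closure {g12, u12}

/-- auxiliary overgroup -/
def N11' : Subgroup (Equiv.Perm GolayPt) :=
  Subgroup.normalizer ((Subgroup.zpowers g12 : Subgroup (Equiv.Perm GolayPt)) :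
    Set (Equiv.Perm GolayPt)) ⊓ fixN M24 [23]

theorem N11_le : N11 ≤ N11' := by
  unfold N11
  rw [Subgroup.closure_le]
  rintro x (rfl | rfl)
  · exact ⟨Subgroup.le_normalizer (Subgroup.mem_zpowers _), g12_mem, fun f hf => by
      rw [List.mem_singleton] at hf; subst hf; exact g12_23⟩
  · exact ⟨mem_normalizer_zpowers u12 g12 3 4 ug3 ug4, u12_mem, fun f hf => by
      rw [List.mem_singleton] at hf; subst hf; exact u12_23⟩

theorem N11'_card_le : Nat.card N11' ≤ 55 := by
  have h := card_le_of_param N11'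
    (fun ij : Fin 5 × Fin 11 => u12 ^ ij.1.val * g12 ^ ij.2.val) (by
      rintro x ⟨hx1, hx2⟩
      have hn : x * g12 * x⁻¹ ∈ Subgroup.zpowers g12 :=
        (Subgroup.mem_normalizer_iff.mp hx1 g12).mp (Subgroup.mem_zpowers _)
      obtain ⟨j, hj, i, hi, e⟩ := norm_g hx2.1 (hx2.2 23 (by simp)) hn
      exact ⟨(⟨j, hj⟩, ⟨i, hi⟩), e.symm⟩)
  rw [Nat.card_prod, Nat.card_fin, Nat.card_fin] at h
  exact h

theorem N11_card : Nat.card N11 = 55 := by
  have h1 : Nat.card N11 ≤ 55 := le_trans (Subgroup.card_le_of_le N11_le) N11'_card_le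
  have hg : g12 ∈ N11 := Subgroup.subset_closure (Set.mem_insert _ _)
  have hu : u12 ∈ N11 := Subgroup.subset_closure (Set.mem_insert_of_mem _ rfl)
  have h11 : 11 ∣ Nat.card N11 := by
    have h := order_dvd_card hg
    rwa [g12_order] at h
  have h5 : 5 ∣ Nat.card N11 := by
    have h := order_dvd_card hu
    rwa [u12_order] at h
  have hpos : 0 < Nat.card N11 := Nat.card_pos
  have h55 : 5 * 11 ∣ Nat.card N11 :=
    Nat.Coprime.mul_dvd_of_dvd_of_dvd (by norm_num) h5 h11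
  have h2 := Nat.le_of_dvd hpos h55
  omega

/-- auxiliary overgroup of `Bg` -/
def NT : Subgroup (Equiv.Perm GolayPt) :=
  Subgroup.normalizer ((Subgroup.zpowers tS : Subgroup (Equiv.Perm GolayPt)) :
    Set (Equiv.Perm GolayPt)) ⊓ M24

theorem Bg_le_NT : Bg ≤ NT := by
  unfold Bg
  rw [Subgroup.closure_le]
  rintro x (hx | ⟨u, hu, rfl⟩)
  · rw [Set.mem_singleton_iff] at hx
    subst hx
    exact ⟨Subgroup.le_normalizer (Subgroup.mem_zpowers _), tS_mem⟩
  · obtain ⟨j, hj⟩ := sq_pow u hu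
    rw [hj]
    exact pow_mem (⟨mem_normalizer_zpowers g12 tS 2 12 gt2 gt12, g12_mem⟩ : g12 ∈ NT) _

theorem NT_card_le : Nat.card NT ≤ 253 := by
  have h := card_le_of_param NT
    (fun ij : Fin 23 × Fin 11 => tS ^ ij.1.val * g12 ^ ij.2.val) (by
      rintro x ⟨hx1, hx2⟩
      have hn : x * tS * x⁻¹ ∈ Subgroup.zpowers tS :=
        (Subgroup.mem_normalizer_iff.mp hx1 tS).mp (Subgroup.mem_zpowers _)
      obtain ⟨c, hc, j, hj, e⟩ := norm_t hx2 hn
      exact ⟨(⟨c, hc⟩, ⟨j, hj⟩), e.symm⟩)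
  rw [Nat.card_prod, Nat.card_fin, Nat.card_fin] at h
  exact h

theorem Bg_card : Nat.card Bg = 253 := by
  have h1 : Nat.card Bg ≤ 253 := le_trans (Subgroup.card_le_of_le Bg_le_NT) NT_card_le
  have h11 : 11 ∣ Nat.card Bg := by
    have h := orderOf_dvd_natCard (⟨g12, g12_mem_Bg⟩ : Bg)
    rwa [Subgroup.orderOf_mk, g12_order] at h
  have h23 : 23 ∣ Nat.card Bg := by
    have h := orderOf_dvd_natCard (⟨tS, tS_mem_Bg⟩ : Bg)
    rwa [Subgroup.orderOf_mk, tS_order] at h
  have hpos : 0 < Nat.card Bg := Nat.card_pos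
  have h253 : 23 * 11 ∣ Nat.card Bg :=
    Nat.Coprime.mul_dvd_of_dvd_of_dvd (by norm_num) h23 h11
  have h2 := Nat.le_of_dvd hpos h253
  omega

theorem Bg_fix : ∀ x ∈ Bg, x none = none := by
  intro x hx
  have hle : Bg ≤ MulAction.stabilizer (Equiv.Perm GolayPt) (none : GolayPt) := by
    unfold Bg
    rw [Subgroup.closure_le]
    rintro y (hy | ⟨u, hu, rfl⟩)
    · rw [Set.mem_singleton_iff] at hy
      subst hy
      exact MulAction.mem_stabilizer_iff.mpr rfl
    · exact MulAction.mem_stabilizer_iff.mpr rfl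
  exact hle hx

/-! ### Sylow counting -/

theorem sylow_count {G : Type*} [Group G] [Finite G] (p : ℕ) [hp : Fact p.Prime] (x : G)
    (hx : orderOf x = p) (hp2 : ¬ p * p ∣ Nat.card G) :
    ∃ n, n % p = 1 ∧ Nat.card G =
      Nat.card (Subgroup.normalizer ((Subgroup.zpowers x : Subgroup G) : Set G)) * n := by
  have hP0 : IsPGroup p (Subgroup.zpowers x) :=
    IsPGroup.of_card (n := 1) (by rw [Nat.card_zpowers, hx, pow_one])
  obtain ⟨P, hP⟩ := hP0.exists_le_sylow
  have hcP : Nat.card (P : Subgroup G) = p := by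
    obtain ⟨k, hk⟩ := IsPGroup.iff_card.mp P.isPGroup'
    have h1 : p ∣ Nat.card (P : Subgroup G) := by
      have h := Subgroup.card_dvd_of_le hP
      rwa [Nat.card_zpowers, hx] at h
    have h2 : Nat.card (P : Subgroup G) ∣ Nat.card G := Subgroup.card_subgroup_dvd_card _
    rcases k with _ | _ | k
    · rw [hk, pow_zero] at h1
      have h3 := Nat.le_of_dvd one_pos h1
      have h4 := hp.out.two_le
      omega
    · simpa using hk
    · exfalso
      apply hp2
      refine dvd_trans ?_ h2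
      rw [hk]
      exact ⟨p ^ k, by ring⟩
  have hPeq : Subgroup.zpowers x = (P : Subgroup G) :=
    Subgroup.eq_of_le_of_card_ge hP (by rw [hcP, Nat.card_zpowers, hx])
  refine ⟨Nat.card (Sylow p G), ?_, ?_⟩
  · have h := card_sylow_modEq_one p G
    unfold Nat.ModEq at h
    rw [h, Nat.mod_eq_of_lt hp.out.one_lt]
  · rw [hPeq, P.card_eq_index_normalizer]
    exact (Subgroup.card_mul_index _).symm

theorem normalizer_card_dvd {H : Subgroup (Equiv.Perm GolayPt)} (x : Equiv.Perm GolayPt)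
    (hx : x ∈ H) (T : Subgroup (Equiv.Perm GolayPt))
    (hT : ∀ y ∈ H, y * x * y⁻¹ ∈ Subgroup.zpowers x → y ∈ T) :
    Nat.card (Subgroup.normalizer ((Subgroup.zpowers (⟨x, hx⟩ : ↥H) : Subgroup ↥H) : Set ↥H)) ∣
      Nat.card T := by
  have hle : (Subgroup.normalizer ((Subgroup.zpowers (⟨x, hx⟩ : ↥H) : Subgroup ↥H) :
      Set ↥H)).map H.subtype ≤ T := by
    rintro _ ⟨y, hy, rfl⟩
    have h1 := (Subgroup.mem_normalizer_iff.mp hy ⟨x, hx⟩).mp (Subgroup.mem_zpowers _)
    rw [Subgroup.mem_zpowers_iff] at h1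
    obtain ⟨k, hk⟩ := h1
    have hk' : x ^ k = (y : Equiv.Perm GolayPt) * x * (y : Equiv.Perm GolayPt)⁻¹ :=
      congrArg Subtype.val hk
    show (y : Equiv.Perm GolayPt) ∈ T
    exact hT _ y.2 (by rw [← hk']; exact Subgroup.zpow_mem _ (Subgroup.mem_zpowers _) k)
  have h2 := Subgroup.card_dvd_of_le hle
  rwa [Subgroup.card_map_of_injective H.subtype_injective] at h2

theorem order_dvd_normalizer {G : Type*} [Group G] [Finite G] (x a : G)
    (ha : a ∈ Subgroup.normalizer ((Subgroup.zpowers x : Subgroup G) : Set G)) :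
    orderOf a ∣ Nat.card (Subgroup.normalizer ((Subgroup.zpowers x : Subgroup G) : Set G)) := by
  have h := orderOf_dvd_natCard (⟨a, ha⟩ :
    Subgroup.normalizer ((Subgroup.zpowers x : Subgroup G) : Set G))
  rwa [Subgroup.orderOf_mk] at h

theorem card_via_23 {H : Subgroup (Equiv.Perm GolayPt)} (hH : H ≤ M24) (hB : Bg ≤ H) :
    ∃ n, n % 23 = 1 ∧ Nat.card H = 253 * n := by
  have : Fact (Nat.Prime 23) := ⟨by norm_num⟩
  have htH : tS ∈ H := hB tS_mem_Bg
  have hgH : g12 ∈ H := hB g12_mem_Bg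
  obtain ⟨n, hn, hc⟩ := sylow_count (G := ↥H) 23 ⟨tS, htH⟩
    (by rw [Subgroup.orderOf_mk]; exact tS_order) (by
      intro hd
      have h1 : Nat.card H ∣ 244823040 := M24_card ▸ Subgroup.card_dvd_of_le hH
      exact absurd (dvd_trans hd h1) (by norm_num))
  refine ⟨n, hn, ?_⟩
  rw [hc]
  congr 1
  have hdvd := normalizer_card_dvd tS htH Bg (fun y hy hz => by
    obtain ⟨c, -, j, -, e⟩ := norm_t (hH hy) hz
    rw [e]
    exact mul_mem (pow_mem tS_mem_Bg _) (pow_mem g12_mem_Bg _))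
  rw [Bg_card] at hdvd
  have h23 := order_dvd_normalizer (⟨tS, htH⟩ : ↥H) ⟨tS, htH⟩
    (Subgroup.le_normalizer (Subgroup.mem_zpowers _))
  rw [Subgroup.orderOf_mk, tS_order] at h23
  have h11 := order_dvd_normalizer (⟨tS, htH⟩ : ↥H) ⟨g12, hgH⟩
    (mem_normalizer_zpowers _ _ 2 12 (Subtype.ext gt2) (Subtype.ext gt12))
  rw [Subgroup.orderOf_mk, g12_order] at h11
  have h253 : 23 * 11 ∣ Nat.card (Subgroup.normalizer
      ((Subgroup.zpowers (⟨tS, htH⟩ : ↥H) : Subgroup ↥H) : Set ↥H)) :=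
    Nat.Coprime.mul_dvd_of_dvd_of_dvd (by norm_num) h23 h11
  exact Nat.dvd_antisymm hdvd h253

theorem card_via_11 {H : Subgroup (Equiv.Perm GolayPt)} (hH : H ≤ M24) (hB : Bg ≤ H)
    (hfix : ∀ x ∈ H, x (pt 23) = pt 23) :
    ∃ c n, (c = 11 ∨ c = 55) ∧ n % 11 = 1 ∧ Nat.card H = c * n := by
  have : Fact (Nat.Prime 11) := ⟨by norm_num⟩
  have hgH : g12 ∈ H := hB g12_mem_Bg
  have hHA : H ≤ gA := fun x hx => ⟨hH hx, fun f hf => by
    rw [List.mem_singleton] at hf; subst hf; exact hfix x hx⟩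
  obtain ⟨n, hn, hc⟩ := sylow_count (G := ↥H) 11 ⟨g12, hgH⟩
    (by rw [Subgroup.orderOf_mk]; exact g12_order) (by
      intro hd
      have h1 : Nat.card H ∣ 10200960 := gA_card ▸ Subgroup.card_dvd_of_le hHA
      exact absurd (dvd_trans hd h1) (by norm_num))
  refine ⟨_, n, ?_, hn, hc⟩
  have hdvd := normalizer_card_dvd g12 hgH N11 (fun y hy hz => by
    obtain ⟨j, -, i, -, e⟩ := norm_g (hH hy) (hfix y hy) hz
    rw [e]
    exact mul_mem (pow_mem (Subgroup.subset_closure (by simp)) _)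
      (pow_mem (Subgroup.subset_closure (by simp)) _))
  rw [N11_card] at hdvd
  have h11 := order_dvd_normalizer (⟨g12, hgH⟩ : ↥H) ⟨g12, hgH⟩
    (Subgroup.le_normalizer (Subgroup.mem_zpowers _))
  rw [Subgroup.orderOf_mk, g12_order] at h11
  obtain ⟨d, hd⟩ := h11
  rw [hd] at hdvd ⊢
  have hd5 : d ∣ 5 := by
    have h3 : 11 * d ∣ 11 * 5 := hdvd
    exact Nat.dvd_of_mul_dvd_mul_left (by norm_num) h3
  rcases (Nat.dvd_prime (by norm_num : Nat.Prime 5)).mp hd5 with rfl | rfl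
  · left; rfl
  · right; rfl

/-! ### orbits -/

theorem pt23 : pt 23 = none := by decide

theorem card_orb {H : Subgroup (Equiv.Perm GolayPt)} (hB : Bg ≤ H) :
    ((∀ x ∈ H, x none = none) ∧ (orbF H none).card = 1) ∨
    ((∃ x ∈ H, x none ≠ none) ∧ (orbF H none).card = 24) := by
  by_cases hfix : ∀ x ∈ H, x none = none
  · left
    refine ⟨hfix, ?_⟩
    rw [Finset.card_eq_one]
    refine ⟨none, ?_⟩
    ext p
    rw [mem_orbF, Finset.mem_singleton]
    constructor
    · rintro ⟨x, hx, rfl⟩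
      exact hfix x hx
    · rintro rfl
      exact ⟨1, H.one_mem, rfl⟩
  · right
    push Not at hfix
    refine ⟨hfix, ?_⟩
    obtain ⟨x, hx, hxn⟩ := hfix
    obtain ⟨y, hy⟩ : ∃ y, x none = some y := Option.ne_none_iff_exists'.mp hxn
    have huniv : orbF H none = Finset.univ := by
      ext p
      simp only [Finset.mem_univ, iff_true]
      cases p with
      | none => exact self_mem_orbF H none
      | some z =>
        rw [mem_orbF]
        refine ⟨tS ^ (z - y).val * x, mul_mem (pow_mem (hB tS_mem_Bg) _) hx, ?_⟩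
        rw [Equiv.Perm.mul_apply, hy, tS_pow_some, ZMod.natCast_zmod_val]
        congr 1
        ring
    rw [huniv, Finset.card_univ]
    exact card_GolayPt

/-! ### the key dichotomy -/

theorem arithK0 : ∀ m, m < 1754 → (23 * m + 1) ∣ 40320 →
    ((23 * (23 * m + 1)) % 11 = 1 ∨
      ((23 * m + 1) % 5 = 0 ∧ (23 * ((23 * m + 1) / 5)) % 11 = 1)) →
    m = 0 ∨ m = 1753 := by decide +kernel

theorem arithK {k : ℕ} (hd : k ∣ 40320) (h23 : k % 23 = 1)
    (h11 : (23 * k) % 11 = 1 ∨ (k % 5 = 0 ∧ (23 * (k / 5)) % 11 = 1)) :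
    k = 1 ∨ k = 40320 := by
  have hle : k ≤ 40320 := Nat.le_of_dvd (by norm_num) hd
  have hm : k / 23 < 1754 := by omega
  have hk : k = 23 * (k / 23) + 1 := by omega
  have h := arithK0 (k / 23) hm (by rw [← hk]; exact hd) (by rw [← hk]; exact h11)
  omega

theorem key {H : Subgroup (Equiv.Perm GolayPt)} (hH : H ≤ M24) (hB : Bg ≤ H) :
    ∃ k, (k = 1 ∨ k = 40320) ∧
      (((∀ x ∈ H, x none = none) ∧ Nat.card H = 253 * k) ∨
       ((∃ x ∈ H, x none ≠ none) ∧ Nat.card H = 24 * (253 * k))) := by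
  have hH1 : H ⊓ MulAction.stabilizer (Equiv.Perm GolayPt) (none : GolayPt) ≤ M24 :=
    fun x hx => hH hx.1
  have hB1 : Bg ≤ H ⊓ MulAction.stabilizer (Equiv.Perm GolayPt) (none : GolayPt) :=
    fun x hx => ⟨hB hx, MulAction.mem_stabilizer_iff.mpr (Bg_fix x hx)⟩
  have hfix1 : ∀ x ∈ H ⊓ MulAction.stabilizer (Equiv.Perm GolayPt) (none : GolayPt),
      x (pt 23) = pt 23 := by
    intro x hx
    rw [pt23]
    exact MulAction.mem_stabilizer_iff.mp hx.2
  obtain ⟨n23, hn23, hc23⟩ := card_via_23 hH hB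
  obtain ⟨c, n11, hc, hn11, hc11⟩ := card_via_11 hH1 hB1 hfix1
  have horb := card_eq_orbF_mul H none
  have hdvd : Nat.card ↥(H ⊓ MulAction.stabilizer (Equiv.Perm GolayPt) (none : GolayPt)) ∣
      10200960 := by
    have hle : H ⊓ MulAction.stabilizer (Equiv.Perm GolayPt) (none : GolayPt) ≤ gA :=
      fun x hx => ⟨hH hx.1, fun f hf => by
        rw [List.mem_singleton] at hf; subst hf; exact hfix1 x hx⟩
    exact gA_card ▸ Subgroup.card_dvd_of_le hle
  have h23 : 23 ∣ Nat.card ↥(H ⊓ MulAction.stabilizer (Equiv.Perm GolayPt) (none : GolayPt)) := by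
    have h := orderOf_dvd_natCard (⟨tS, hB1 tS_mem_Bg⟩ :
      ↥(H ⊓ MulAction.stabilizer (Equiv.Perm GolayPt) (none : GolayPt)))
    rwa [Subgroup.orderOf_mk, tS_order] at h
  have h11 : 11 ∣ Nat.card ↥(H ⊓ MulAction.stabilizer (Equiv.Perm GolayPt) (none : GolayPt)) := by
    have h := orderOf_dvd_natCard (⟨g12, hB1 g12_mem_Bg⟩ :
      ↥(H ⊓ MulAction.stabilizer (Equiv.Perm GolayPt) (none : GolayPt)))
    rwa [Subgroup.orderOf_mk, g12_order] at h
  have h253 : 23 * 11 ∣
      Nat.card ↥(H ⊓ MulAction.stabilizer (Equiv.Perm GolayPt) (none : GolayPt)) :=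
    Nat.Coprime.mul_dvd_of_dvd_of_dvd (by norm_num) h23 h11
  obtain ⟨k, hk⟩ := h253
  have hk' : Nat.card ↥(H ⊓ MulAction.stabilizer (Equiv.Perm GolayPt) (none : GolayPt)) =
      253 * k := by rw [hk]
  rw [hk'] at hdvd hc11 horb
  have hkd : k ∣ 40320 := by
    have h3 : 253 * k ∣ 253 * 40320 := hdvd
    exact Nat.dvd_of_mul_dvd_mul_left (by norm_num) h3
  have ho := card_orb hB
  have hk23 : k % 23 = 1 := by
    rcases ho with ⟨-, ho⟩ | ⟨-, ho⟩
    · rw [ho] at horb
      omega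
    · rw [ho] at horb
      omega
  have hk11 : (23 * k) % 11 = 1 ∨ (k % 5 = 0 ∧ (23 * (k / 5)) % 11 = 1) := by
    rcases hc with rfl | rfl
    · left; omega
    · right; omega
  refine ⟨k, arithK hkd hk23 hk11, ?_⟩
  rcases ho with ⟨hf, ho⟩ | ⟨hf, ho⟩
  · left
    refine ⟨hf, ?_⟩
    rw [horb, ho, one_mul]
  · right
    refine ⟨hf, ?_⟩
    rw [horb, ho]

end Cfsg.Agent.H12L23
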