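import Cfsg.Prelude.Def_MonsterType
import Cfsg.Prelude.Def_Local
import Cfsg.Agent.S5552
import Cfsg.Agent.Helper28.MonsterQ

/-!
Groups of Monster type: the squaring map on `Q` read off the lattice, representatives of short
norm, and conjugacy under the centraliser of elements of `Q` with representatives of equal norm.
-/

set_option autoImplicit false
open Cfsg

namespace Cfsg.Agent.H12MonQ

open Cfsg.Agent.Helper3 Cfsg.Agent.Helper28.Leech Cfsg.Agent.Helper28.MonsterQ

theorem sqNorm_double (w : GolayPt → ℤ) : sqNorm (w + w) = 4 * sqNorm w := by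
  unfold sqNorm
  rw [Finset.mul_sum]
  apply Finset.sum_congr rfl
  intro i _
  simp only [Pi.add_apply]
  ring

theorem not_double {y : leechLattice}
    (hy : sqNorm (y : GolayPt → ℤ) = 32 ∨ sqNorm (y : GolayPt → ℤ) = 48 ∨
      sqNorm (y : GolayPt → ℤ) = 64) : ¬ ∃ w : leechLattice, y = w + w := by
  rintro ⟨w, rfl⟩
  have h1 : sqNorm ((w + w : leechLattice) : GolayPt → ℤ) = 4 * sqNorm (w : GolayPt → ℤ) := by
    rw [AddSubgroup.coe_add]
    exact sqNorm_double _
  by_cases hw : (w : GolayPt → ℤ) = 0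
  · rw [h1, hw] at hy
    have h0 : sqNorm (0 : GolayPt → ℤ) = 0 := by unfold sqNorm; simp
    rw [h0] at hy
    omega
  · have h2 := leech_min_norm _ w.2 hw
    rw [h1] at hy
    omega

section
variable {P : Type*} [Group P]

theorem comm_central (ψ : leechLattice → P ⧸ Subgroup.center P)
    (hmul : ∀ v w : leechLattice, ψ (v + w) = ψ v * ψ w) (hsurj : Function.Surjective ψ)
    (a b : P) : b * a * b⁻¹ * a⁻¹ ∈ Subgroup.center P := by
  obtain ⟨u, hu⟩ := hsurj (QuotientGroup.mk a)
  obtain ⟨v, hv⟩ := hsurj (QuotientGroup.mk b)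
  rw [← QuotientGroup.eq_one_iff]
  simp only [QuotientGroup.mk_mul, QuotientGroup.mk_inv]
  rw [← hu, ← hv, ← hmul, add_comm, hmul]
  group

/-- the squaring map of `P` is the norm form of the lattice -/
theorem sq_type (hZ : Nat.card (Subgroup.center P) = 2) (hP : Nat.card P = 2 ^ 25)
    (ψ : leechLattice → P ⧸ Subgroup.center P)
    (hmul : ∀ v w : leechLattice, ψ (v + w) = ψ v * ψ w)
    (hsurj : Function.Surjective ψ)
    (hker : ∀ v : leechLattice, ψ v = 1 ↔ ∃ w : leechLattice, v = w + w)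
    (hinv : ∀ g : Co0, ∃ α : P → P, (∀ q, α q * α q = 1 ↔ q * q = 1) ∧
      ∀ (v : leechLattice) (q : P), ψ v = QuotientGroup.mk q →
        ψ (g • v) = QuotientGroup.mk (α q))
    (v : leechLattice) (q : P) (hvq : ψ v = QuotientGroup.mk q) :
    sqf q = ((sqNorm (v : GolayPt → ℤ) / 16 : ℤ) : ZMod 2) := by
  classical
  have hdbl : ∀ w : leechLattice, ψ (w + w) = 1 := fun w => (hker _).mpr ⟨w, rfl⟩
  have hsq : ∀ q : P, q * q ∈ Subgroup.center P := by
    intro q
    obtain ⟨v, hv⟩ := hsurj (QuotientGroup.mk q)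
    rw [← QuotientGroup.eq_one_iff, QuotientGroup.mk_mul, ← hv, ← hmul]
    exact hdbl v
  have hcomm : ∀ a b : P, b * a * b⁻¹ * a⁻¹ ∈ Subgroup.center P :=
    comm_central ψ hmul hsurj
  have hex : ∀ v : leechLattice, ∃ q : P, QuotientGroup.mk q = ψ v :=
    fun v => QuotientGroup.mk_surjective (ψ v)
  choose L hL using hex
  have qcoset : ∀ v w : leechLattice, sqf (L (v + (w + w))) = sqf (L v) := by
    intro v w
    apply sqf_congr hZ
    rw [hL, hL, hmul, hdbl, mul_one]
  have qquad : ∀ u v w : leechLattice,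
      sqf (L (u + v + w)) + sqf (L u) + sqf (L v) + sqf (L w)
        = sqf (L (u + v)) + sqf (L (u + w)) + sqf (L (v + w)) := by
    intro u v w
    have e1 : sqf (L (u + v + w)) = sqf (L u * L v * L w) := by
      apply sqf_congr hZ
      rw [hL, hmul, hmul]
      simp only [QuotientGroup.mk_mul, hL]
    have e2 : ∀ a b : leechLattice, sqf (L (a + b)) = sqf (L a * L b) := by
      intro a b
      apply sqf_congr hZ
      rw [hL, hmul]
      simp only [QuotientGroup.mk_mul, hL]
    rw [e1, e2 u v, e2 u w, e2 v w]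
    exact sqf_quad hZ hsq hcomm (L u) (L v) (L w)
  have qinv : ∀ (g : Co0) (v : leechLattice), sqf (L (g • v)) = sqf (L v) := by
    intro g v
    obtain ⟨α, hα1, hα2⟩ := hinv g
    have h1 := hα2 v (L v) (hL v).symm
    have h2 : sqf (L (g • v)) = sqf (α (L v)) := by
      apply sqf_congr hZ
      rw [hL, h1]
    rw [h2]
    unfold sqf iota
    simp only [hα1]
  have hne : ∃ v : leechLattice, sqf (L v) ≠ 0 := by
    by_contra hall
    push Not at hall
    have hsq1 : ∀ q : P, q * q = 1 := by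
      intro q
      obtain ⟨v, hv⟩ := hsurj (QuotientGroup.mk q)
      have h1 : sqf q = sqf (L v) := sqf_congr hZ (by rw [hL, hv])
      exact sqf_eq_zero (by rw [h1, hall v])
    have hcm : ∀ a b : P, a * b = b * a := by
      intro a b
      have ia : a⁻¹ = a := inv_eq_of_mul_eq_one_left (hsq1 a)
      have ib : b⁻¹ = b := inv_eq_of_mul_eq_one_left (hsq1 b)
      have iab : (a * b)⁻¹ = a * b := inv_eq_of_mul_eq_one_left (hsq1 (a * b))
      rw [← iab, mul_inv_rev, ia, ib]
    have htop : Subgroup.center P = ⊤ := by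
      rw [eq_top_iff]
      intro a _
      rw [Subgroup.mem_center_iff]
      intro g
      exact hcm g a
    rw [htop, Subgroup.card_top, hP] at hZ
    norm_num at hZ
  have hres := Cfsg.Agent.S5552.result (fun v => sqf (L v)) qcoset qquad qinv hne v
  rw [← hres]
  exact sqf_congr hZ (by rw [hL, hvq])

/-- every element of `P` is the image of a lattice vector of norm `0`, `32`, `48` or `64` -/
theorem exists_rep (ψ : leechLattice → P ⧸ Subgroup.center P)
    (hmul : ∀ v w : leechLattice, ψ (v + w) = ψ v * ψ w)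
    (hsurj : Function.Surjective ψ)
    (hker : ∀ v : leechLattice, ψ v = 1 ↔ ∃ w : leechLattice, v = w + w) (x : P) :
    ∃ y : leechLattice, ψ y = QuotientGroup.mk x ∧
      (sqNorm (y : GolayPt → ℤ) = 0 ∨ sqNorm (y : GolayPt → ℤ) = 32 ∨
        sqNorm (y : GolayPt → ℤ) = 48 ∨ sqNorm (y : GolayPt → ℤ) = 64) := by
  obtain ⟨v, hv⟩ := hsurj (QuotientGroup.mk x)
  obtain ⟨y, hy, hyn, w, hw, hxy⟩ := mod_two_rep v.1 v.2
  have hvs : v = (⟨y, hy⟩ : leechLattice) + ((⟨w, hw⟩ : leechLattice) + ⟨w, hw⟩) := by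
    apply Subtype.ext
    show (v : GolayPt → ℤ) = y + (w + w)
    have h3 : (v : GolayPt → ℤ) = y + 2 • w := by
      rw [← hxy]
      abel
    rw [h3, two_smul]
  refine ⟨⟨y, hy⟩, ?_, ?_⟩
  · rw [← hv, hvs, hmul, (hker _).mpr ⟨⟨w, hw⟩, rfl⟩, mul_one]
  · show sqNorm y = 0 ∨ sqNorm y = 32 ∨ sqNorm y = 48 ∨ sqNorm y = 64
    obtain ⟨k, hk⟩ := leech_dvd y hy
    have h0 := sqNorm_nonneg y
    by_cases hy0 : y = 0
    · left
      rw [hy0]
      unfold sqNorm
      simp
    · have h32 := leech_min_norm y hy hy0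
      omega

end

section
variable {G : Type*} [Group G] (z : G)

/-- `z` as an element of its centraliser -/
def zc : Subgroup.centralizer ({z} : Set G) := ⟨z, by
  rw [Subgroup.mem_centralizer_iff]
  intro h hh
  rw [Set.mem_singleton_iff] at hh
  rw [hh]⟩

theorem zc_central : zc z ∈ Subgroup.center (Subgroup.centralizer ({z} : Set G)) := by
  rw [Subgroup.mem_center_iff]
  intro c
  apply Subtype.ext
  have h := Subgroup.mem_centralizer_iff.mp c.2 z (Set.mem_singleton z)
  exact h.symm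

theorem nilp_of_comm {A : Type*} [Group A] (h : ∀ a b : A, a * b = b * a) :
    Group.IsNilpotent A := by
  letI : CommGroup A := { (inferInstance : Group A) with mul_comm := h }
  exact CommGroup.isNilpotent

theorem z_mem (Q : Subgroup (Subgroup.centralizer ({z} : Set G)))
    (hF : generalizedFittingSubgroup (Subgroup.centralizer ({z} : Set G)) = Q) : zc z ∈ Q := by
  rw [← hF]
  have h1 : Subgroup.center (Subgroup.centralizer ({z} : Set G)) ≤
      fittingSubgroup (Subgroup.centralizer ({z} : Set G)) :=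
    le_sSup ⟨inferInstance, nilp_of_comm (fun a b =>
      Subtype.ext (Subgroup.mem_center_iff.mp b.2 a.1))⟩
  show zc z ∈ layer _ ⊔ fittingSubgroup _
  exact (le_sup_right : fittingSubgroup (Subgroup.centralizer ({z} : Set G)) ≤ _)
    (h1 (zc_central z))

theorem central_cases (Q : Subgroup (Subgroup.centralizer ({z} : Set G)))
    (hZ : Nat.card (Subgroup.center Q) = 2) (hzQ : zc z ∈ Q) (hz1 : z ≠ 1)
    (x : Q) (hx : x ∈ Subgroup.center Q) : x = 1 ∨ x = ⟨zc z, hzQ⟩ := by
  by_cases h1 : x = 1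
  · left
    exact h1
  · right
    have hzc : (⟨zc z, hzQ⟩ : Q) ∈ Subgroup.center Q := by
      rw [Subgroup.mem_center_iff]
      intro q
      apply Subtype.ext
      exact Subgroup.mem_center_iff.mp (zc_central z) q.1
    have hz1' : (⟨zc z, hzQ⟩ : Q) ≠ 1 := by
      intro h
      apply hz1
      exact congrArg (fun q : Q => ((q : Subgroup.centralizer ({z} : Set G)) : G)) h
    exact Cfsg.Agent.Helper28.eq_of_card_two hZ hx hzc h1 hz1'

/-- elements of `Q` with representatives of the same norm `32` or `64` are conjugate under the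
centraliser -/
theorem conj_of_same_norm (Q : Subgroup (Subgroup.centralizer ({z} : Set G))) [Q.Normal]
    (hZ : Nat.card (Subgroup.center Q) = 2)
    (e : (Subgroup.centralizer ({z} : Set G)) ⧸ Q ≃* Spor.Co1)
    (ψ : leechLattice → Q ⧸ Subgroup.center Q) (hψ : IsLeechModTwoIso Q e ψ)
    (x1 x2 : Q) (y1 y2 : leechLattice) (h1 : ψ y1 = QuotientGroup.mk x1)
    (h2 : ψ y2 = QuotientGroup.mk x2)
    (hN : (sqNorm (y1 : GolayPt → ℤ) = 32 ∧ sqNorm (y2 : GolayPt → ℤ) = 32) ∨
      (sqNorm (y1 : GolayPt → ℤ) = 64 ∧ sqNorm (y2 : GolayPt → ℤ) = 64)) :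
    ∃ h : Subgroup.centralizer ({z} : Set G),
      h * (x1 : Subgroup.centralizer ({z} : Set G)) * h⁻¹ = x2 := by
  obtain ⟨hmul, hsurj, hker, heq⟩ := hψ
  obtain ⟨g, hg⟩ : ∃ g : Co0, g • y1 = y2 := by
    rcases hN with ⟨ha, hb⟩ | ⟨ha, hb⟩
    · exact co0_trans_min y1 y2 ha hb
    · exact co0_trans_64 y1 y2 ha hb
  obtain ⟨h0, hh0⟩ := QuotientGroup.mk_surjective (e.symm (QuotientGroup.mk g))
  have hx0 := heq h0 g (by rw [hh0, e.apply_symm_apply]) y1 x1 h1
  rw [hg, h2] at hx0
  obtain ⟨x, hxv, hx⟩ : ∃ x : Q, (x : Subgroup.centralizer ({z} : Set G)) = h0 * x1 * h0⁻¹ ∧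
      (QuotientGroup.mk x2 : Q ⧸ Subgroup.center Q) = QuotientGroup.mk x := ⟨_, rfl, hx0⟩
  have hc : x⁻¹ * x2 ∈ Subgroup.center Q := QuotientGroup.eq.mp hx.symm
  by_cases hc1 : x⁻¹ * x2 = 1
  · refine ⟨h0, ?_⟩
    have h3 : x2 = x := by
      have h4 : x2 = x * (x⁻¹ * x2) := by group
      rw [h4, hc1, mul_one]
    rw [h3, hxv]
  · have hy2 : ψ y2 ≠ 1 := by
      rw [Ne, hker]
      apply not_double
      rcases hN with ⟨_, hb⟩ | ⟨_, hb⟩
      · exact Or.inl hb
      · exact Or.inr (Or.inr hb)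
    have hxnc : x ∉ Subgroup.center Q := by
      intro hxc
      apply hy2
      rw [h2, hx]
      exact (QuotientGroup.eq_one_iff x).mpr hxc
    rw [Subgroup.mem_center_iff] at hxnc
    push Not at hxnc
    obtain ⟨q, hq⟩ := hxnc
    have hd : q * x * q⁻¹ * x⁻¹ ∈ Subgroup.center Q := comm_central ψ hmul hsurj x q
    have hd1 : q * x * q⁻¹ * x⁻¹ ≠ 1 := by
      intro h
      apply hq
      have h4 : q * x = (q * x * q⁻¹ * x⁻¹) * (x * q) := by group
      rw [h4, h, one_mul]
    have hdc := Cfsg.Agent.Helper28.eq_of_card_two hZ hd hc hd1 hc1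
    refine ⟨(q : Subgroup.centralizer ({z} : Set G)) * h0, ?_⟩
    have hk : ∀ g' : Q, g' * (x⁻¹ * x2) = (x⁻¹ * x2) * g' := Subgroup.mem_center_iff.mp hc
    have e1 : q * x * q⁻¹ = x2 := by
      have h4 : q * x * q⁻¹ = (q * x * q⁻¹ * x⁻¹) * x := by group
      rw [h4, hdc, ← hk x]
      group
    have e2 : (q : Subgroup.centralizer ({z} : Set G)) * x * (q : Subgroup.centralizer ({z} : Set G))⁻¹
        = x2 := congrArg (fun t : Q => (t : Subgroup.centralizer ({z} : Set G))) e1
    rw [← e2, hxv]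
    group

end

end Cfsg.Agent.H12MonQ
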