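import Mathlib
import Cfsg.Agent.Helper28.SxStab
import Cfsg.Agent.Helper12.GolayTrio2
import Cfsg.Agent.Helper12.Fano2

set_option autoImplicit false
open scoped Pointwise

/-!
# The seven sextets refining a trio

The seven sextets whose tetrads lie inside the octads of a trio form a plane of order two; the
stabiliser of the trio acts on it linearly, and the elements acting trivially on the plane and on
the three octads form a group of order at most 64 and exponent two.  Everything is checked on the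
first trio of helper28's list.
-/

namespace Cfsg.Agent.Helper12
open Cfsg Cfsg.Agent.Helper28

theorem allB_intro {n : ℕ} {f : ℕ → Bool} (h : ∀ k, k < n → f k = true) : allB n f = true := by
  induction n with
  | zero => rfl
  | succ n ih =>
    rw [allB_succ, h n (Nat.lt_succ_self n), cond_true]
    exact ih (fun k hk => h k (Nat.lt_succ_of_lt hk))

theorem tr_nbeq {a b : ℕ} (h : a ≠ b) : Nat.beq a b = false := by
  cases hb : Nat.beq a b with
  | false => rfl
  | true => exact absurd (Nat.eq_of_beq_eq_true hb) h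

theorem tr_bor1 {x y : Bool} (h : (!x || y) = true) (hx : x = true) : y = true := by
  cases x <;> simp_all

theorem tr_bor4 {x p q r : Bool} (h : (!x || p || q || r) = true) (hx : x = true)
    (hp : p = false) : q = true ∨ r = true := by
  cases x <;> cases p <;> cases q <;> simp_all

theorem tr_bxor {a b : Bool} (h : Bool.xor a b = true) : ¬ (a = true ↔ b = true) := by
  cases a <;> cases b <;> simp_all

/-! ## Vectors and their codes -/

/-- The code of a vector. -/
def vcode (v : V2) : ℕ := (v 0).val + 2 * (v 1).val + 4 * (v 2).val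

theorem vcode_lt (v : V2) : vcode v < 8 := by
  unfold vcode
  have h0 := ZMod.val_lt (v 0)
  have h1 := ZMod.val_lt (v 1)
  have h2 := ZMod.val_lt (v 2)
  omega

theorem vcode_inj {u v : V2} (h : vcode u = vcode v) : u = v := by
  unfold vcode at h
  have a0 := ZMod.val_lt (u 0)
  have a1 := ZMod.val_lt (u 1)
  have a2 := ZMod.val_lt (u 2)
  have b0 := ZMod.val_lt (v 0)
  have b1 := ZMod.val_lt (v 1)
  have b2 := ZMod.val_lt (v 2)
  funext i
  fin_cases i
  · exact ZMod.val_injective 2 (by show (u 0).val = (v 0).val; omega)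
  · exact ZMod.val_injective 2 (by show (u 1).val = (v 1).val; omega)
  · exact ZMod.val_injective 2 (by show (u 2).val = (v 2).val; omega)

theorem vcode_zero : vcode 0 = 0 := by
  simp [vcode]

theorem vcode_ne_zero {v : V2} (hv : v ≠ 0) : vcode v ≠ 0 :=
  fun h => hv (vcode_inj (h.trans vcode_zero.symm))

theorem k_vadd : ∀ a b c a' b' c' : ZMod 2,
    (a + a').val + 2 * (b + b').val + 4 * (c + c').val =
      (a.val + 2 * b.val + 4 * c.val) ^^^ (a'.val + 2 * b'.val + 4 * c'.val) := by decide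

theorem vcode_add (u v : V2) : vcode (u + v) = vcode u ^^^ vcode v := k_vadd _ _ _ _ _ _

/-- The vector with a given code. -/
def vecOf (c : ℕ) : V2 := ![(c : ZMod 2), ((c / 2 : ℕ) : ZMod 2), ((c / 4 : ℕ) : ZMod 2)]

theorem k_vecOf : ∀ c, c < 8 → vcode (vecOf c) = c := by decide

theorem vecOf_ne_zero {c : ℕ} (hc : c < 8) (h0 : c ≠ 0) : vecOf c ≠ 0 := by
  intro e
  have := k_vecOf c hc
  rw [e, vcode_zero] at this
  exact h0 this.symm

/-! ## The base trio and its seven sextets -/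

/-- The numbers of the seven sextets refining the first trio, indexed by vector codes. -/
def trRV : List ℕ := [3, 3, 23, 204, 84, 181, 166, 101]

/-- The masks of the tetrads of the seven sextets. -/
def svm (c i : ℕ) : ℕ := Sext.sxm (trRV.getD c 0) i

/-- The sextet of a vector. -/
def SV (v : V2) : Finset (Finset GolayPt) := Sext.sx (trRV.getD (vcode v) 0)

/-- The masks of the octads of the first trio. -/
def tom (j : ℕ) : ℕ := [5279, 1009728, 15762208].getD j 0

theorem trm00 : Trio.trm 0 0 = 5279 := by decide +kernel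
theorem trm01 : Trio.trm 0 1 = 1009728 := by decide +kernel
theorem trm02 : Trio.trm 0 2 = 15762208 := by decide +kernel

theorem tom_eq {j : ℕ} (hj : j < 3) : Trio.trm 0 j = tom j := by
  interval_cases j
  · exact trm00
  · exact trm01
  · exact trm02

theorem mem_tr0 {o : Finset GolayPt} : o ∈ Trio.tr 0 ↔ ∃ j, j < 3 ∧ o = ofMask (tom j) := by
  unfold Trio.tr
  rw [Sext.mem_fam]
  constructor
  · rintro ⟨j, hj, rfl⟩
    exact ⟨j, hj, by rw [tom_eq hj]⟩
  · rintro ⟨j, hj, rfl⟩
    exact ⟨j, hj, by rw [tom_eq hj]⟩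

theorem mem_SV {v : V2} {t : Finset GolayPt} :
    t ∈ SV v ↔ ∃ i, i < 6 ∧ t = ofMask (svm (vcode v) i) := Sext.mem_fam

theorem k_rv : ∀ c, c < 8 → trRV.getD c 0 < 1771 := by decide

theorem SV_mem (v : V2) : SV v ∈ sextets := Sext.sx_mem (k_rv _ (vcode_lt v))

/-- A family of sets refines another when each of its members lies in a member of the other. -/
def Refines (S T : Finset (Finset GolayPt)) : Prop := ∀ t ∈ S, ∃ o ∈ T, t ⊆ o

theorem refines_smul {S T : Finset (Finset GolayPt)} (g : Equiv.Perm GolayPt) (h : Refines S T) :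
    Refines (g • S) (g • T) := by
  intro t ht
  obtain ⟨t', ht', rfl⟩ := Finset.mem_smul_finset.mp ht
  obtain ⟨o, ho, hsub⟩ := h t' ht'
  exact ⟨g • o, Finset.smul_mem_smul_finset ho, Finset.smul_finset_subset_smul_finset hsub⟩

/-- The mask lies inside an octad of the first trio. -/
def subT (m : ℕ) : Bool := anyB 3 (fun j => Nat.beq (Nat.land m (tom j)) m)

theorem subT_spec {m : ℕ} (hm : m < 2 ^ 24) :
    subT m = true ↔ ∃ o ∈ Trio.tr 0, ofMask m ⊆ o := by
  unfold subT
  rw [anyB_iff]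
  constructor
  · rintro ⟨j, hj, h⟩
    rw [Nat.beq_eq] at h
    exact ⟨ofMask (tom j), mem_tr0.mpr ⟨j, hj, rfl⟩, (ofMask_subset_iff hm).mpr h⟩
  · rintro ⟨o, ho, hsub⟩
    obtain ⟨j, hj, rfl⟩ := mem_tr0.mp ho
    exact ⟨j, hj, by rw [Nat.beq_eq]; exact (ofMask_subset_iff hm).mp hsub⟩

theorem k_p1 : allB 8 (fun c => Nat.beq c 0 || allB 6 (fun i => subT (svm c i))) = true := by
  decide +kernel

theorem SV_refines {v : V2} (hv : v ≠ 0) : Refines (SV v) (Trio.tr 0) := by
  intro t ht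
  obtain ⟨i, hi, rfl⟩ := mem_SV.mp ht
  have h := allB_spec k_p1 _ (vcode_lt v)
  rw [tr_nbeq (vcode_ne_zero hv), Bool.false_or] at h
  exact (subT_spec (Sext.sxm_lt _ _)).mp (allB_spec h i hi)

theorem k_p2 : allB 1771 (fun k => !(allB 6 (fun i => subT (Sext.sxm k i))) ||
    anyB 8 (fun c => !(Nat.beq c 0) && Nat.beq (trRV.getD c 0) k)) = true := by decide +kernel

theorem exists_SV {S : Finset (Finset GolayPt)} (hS : S ∈ sextets)
    (hr : Refines S (Trio.tr 0)) : ∃ v : V2, v ≠ 0 ∧ S = SV v := by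
  obtain ⟨k, hk, rfl⟩ := Sext.sx_complete hS
  have h1 : allB 6 (fun i => subT (Sext.sxm k i)) = true :=
    allB_intro (fun i hi => (subT_spec (Sext.sxm_lt _ _)).mpr (hr _ (Sext.mem_sx hi)))
  have h2 := tr_bor1 (allB_spec k_p2 k hk) h1
  rw [anyB_iff] at h2
  obtain ⟨c, hc, h3⟩ := h2
  rw [Bool.and_eq_true, Nat.beq_eq] at h3
  refine ⟨vecOf c, vecOf_ne_zero hc ?_, ?_⟩
  · intro e
    rw [e] at h3
    simp at h3
  · unfold SV
    rw [k_vecOf c hc, h3.2]

theorem k_p3 : ∀ c, c < 8 → ∀ c', c' < 8 → c ≠ 0 → c' ≠ 0 →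
    trRV.getD c 0 = trRV.getD c' 0 → c = c' := by decide

theorem SV_inj {u v : V2} (hu : u ≠ 0) (hv : v ≠ 0) (h : SV u = SV v) : u = v := by
  have := Sext.sx_inj _ _ (k_rv _ (vcode_lt u)) (k_rv _ (vcode_lt v)) h
  exact vcode_inj (k_p3 _ (vcode_lt u) _ (vcode_lt v) (vcode_ne_zero hu) (vcode_ne_zero hv) this)

/-! ## Lines -/

/-- Three families are in line when the symmetric difference of a member of the first and a member
of the second is a member of the third. -/
def Col3 (S1 S2 S3 : Finset (Finset GolayPt)) : Prop := ∃ a ∈ S1, ∃ b ∈ S2, symmDiff a b ∈ S3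

theorem col3_smul (g : Equiv.Perm GolayPt) {S1 S2 S3 : Finset (Finset GolayPt)}
    (h : Col3 S1 S2 S3) : Col3 (g • S1) (g • S2) (g • S3) := by
  obtain ⟨a, ha, b, hb, hab⟩ := h
  refine ⟨g • a, Finset.smul_mem_smul_finset ha, g • b, Finset.smul_mem_smul_finset hb, ?_⟩
  have e : symmDiff (g • a) (g • b) = g • symmDiff a b :=
    (Finset.image_symmDiff a b (MulAction.injective g)).symm
  rw [e]
  exact Finset.smul_mem_smul_finset hab

theorem k_c1 : allB 8 (fun cu => allB 8 (fun cv => Nat.beq cu 0 || Nat.beq cv 0 || Nat.beq cu cv ||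
    anyB 6 (fun i => anyB 6 (fun i' => anyB 6 (fun i'' =>
      Nat.beq (Nat.xor (svm cu i) (svm cv i')) (svm (Nat.xor cu cv) i'')))))) = true := by
  decide +kernel

theorem SV_col {u v : V2} (hu : u ≠ 0) (hv : v ≠ 0) (huv : u ≠ v) :
    Col3 (SV u) (SV v) (SV (u + v)) := by
  have h := allB_spec (allB_spec k_c1 _ (vcode_lt u)) _ (vcode_lt v)
  rw [tr_nbeq (vcode_ne_zero hu), tr_nbeq (vcode_ne_zero hv),
    tr_nbeq (fun e => huv (vcode_inj e))] at h
  simp only [Bool.false_or] at h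
  rw [anyB_iff] at h
  obtain ⟨i, hi, h⟩ := h
  rw [anyB_iff] at h
  obtain ⟨i', hi', h⟩ := h
  rw [anyB_iff] at h
  obtain ⟨i'', hi'', h⟩ := h
  rw [Nat.beq_eq] at h
  refine ⟨ofMask (svm (vcode u) i), mem_SV.mpr ⟨i, hi, rfl⟩, ofMask (svm (vcode v) i'),
    mem_SV.mpr ⟨i', hi', rfl⟩, ?_⟩
  rw [← ofMask_xor]
  refine mem_SV.mpr ⟨i'', hi'', ?_⟩
  rw [vcode_add]
  exact congrArg ofMask h

theorem k_c2 : allB 8 (fun cu => allB 8 (fun cv => allB 8 (fun cw =>
    Nat.beq cu 0 || Nat.beq cv 0 || Nat.beq cw 0 || Nat.beq cu cv ||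
    allB 6 (fun i => allB 6 (fun i' => allB 6 (fun i'' =>
      !(Nat.beq (Nat.xor (svm cu i) (svm cv i')) (svm cw i'')) ||
        Nat.beq cw (Nat.xor cu cv))))))) = true := by
  decide +kernel

theorem SV_col_unique {u v w : V2} (hu : u ≠ 0) (hv : v ≠ 0) (hw : w ≠ 0) (huv : u ≠ v)
    (h : Col3 (SV u) (SV v) (SV w)) : w = u + v := by
  obtain ⟨a, ha, b, hb, hab⟩ := h
  obtain ⟨i, hi, rfl⟩ := mem_SV.mp ha
  obtain ⟨i', hi', rfl⟩ := mem_SV.mp hb
  rw [← ofMask_xor] at hab
  obtain ⟨i'', hi'', e⟩ := mem_SV.mp hab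
  have e' := ofMask_inj (Nat.xor_lt_two_pow (Sext.sxm_lt _ _) (Sext.sxm_lt _ _))
    (Sext.sxm_lt _ _) e
  have h := allB_spec (allB_spec (allB_spec k_c2 _ (vcode_lt u)) _ (vcode_lt v)) _ (vcode_lt w)
  rw [tr_nbeq (vcode_ne_zero hu), tr_nbeq (vcode_ne_zero hv), tr_nbeq (vcode_ne_zero hw),
    tr_nbeq (fun e => huv (vcode_inj e))] at h
  simp only [Bool.false_or] at h
  have h2 := tr_bor1 (allB_spec (allB_spec (allB_spec h i hi) i' hi') i'' hi'')
    (by rw [Nat.beq_eq]; exact e')
  rw [Nat.beq_eq] at h2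
  apply vcode_inj
  rw [vcode_add]
  exact h2

/-! ## Tetrads inside the octads -/

/-- The mask lies inside the `j`-th octad of the first trio. -/
def subJ (j m : ℕ) : Bool := Nat.beq (Nat.land m (tom j)) m

theorem k_f1 : allB 8 (fun c => Nat.beq c 0 || allB 3 (fun j => allB 6 (fun i => allB 6 (fun i' =>
    allB 6 (fun i'' => !(subJ j (svm c i) && subJ j (svm c i') && subJ j (svm c i'')) ||
      Nat.beq i i' || Nat.beq i'' i || Nat.beq i'' i'))))) = true := by decide +kernel

theorem SV_two {v : V2} (hv : v ≠ 0) {o t t' t'' : Finset GolayPt} (ho : o ∈ Trio.tr 0)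
    (ht : t ∈ SV v) (ht' : t' ∈ SV v) (ht'' : t'' ∈ SV v) (hs : t ⊆ o) (hs' : t' ⊆ o)
    (hs'' : t'' ⊆ o) (hne : t ≠ t') : t'' = t ∨ t'' = t' := by
  obtain ⟨j, hj, rfl⟩ := mem_tr0.mp ho
  obtain ⟨i, hi, rfl⟩ := mem_SV.mp ht
  obtain ⟨i', hi', rfl⟩ := mem_SV.mp ht'
  obtain ⟨i'', hi'', rfl⟩ := mem_SV.mp ht''
  have h := allB_spec k_f1 _ (vcode_lt v)
  rw [tr_nbeq (vcode_ne_zero hv), Bool.false_or] at h
  have h2 := allB_spec (allB_spec (allB_spec (allB_spec h j hj) i hi) i' hi') i'' hi''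
  have b1 : subJ j (svm (vcode v) i) = true := by
    unfold subJ; rw [Nat.beq_eq]; exact (ofMask_subset_iff (Sext.sxm_lt _ _)).mp hs
  have b2 : subJ j (svm (vcode v) i') = true := by
    unfold subJ; rw [Nat.beq_eq]; exact (ofMask_subset_iff (Sext.sxm_lt _ _)).mp hs'
  have b3 : subJ j (svm (vcode v) i'') = true := by
    unfold subJ; rw [Nat.beq_eq]; exact (ofMask_subset_iff (Sext.sxm_lt _ _)).mp hs''
  have hii : Nat.beq i i' = false := tr_nbeq (fun e => hne (by rw [e]))
  rcases tr_bor4 h2 (by rw [b1, b2, b3]; rfl) hii with e | e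
  · left
    rw [Nat.beq_eq] at e
    rw [e]
  · right
    rw [Nat.beq_eq] at e
    rw [e]

/-! ## Separation of points -/

/-- The tetrads through the point `p` separate the points of the set `O` from all others. -/
def sepChk (O p : ℕ) : Bool := allB 24 (fun x => allB 24 (fun y => !(tb O x) || Nat.beq x y ||
  anyB 8 (fun c => !(Nat.beq c 0) && anyB 6 (fun i => tb (svm c i) p &&
    Bool.xor (tb (svm c i) x) (tb (svm c i) y)))))

theorem k_sep0 : sepChk 5279 0 = true := by decide +kernel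

theorem k_sep1 : sepChk 1009728 6 = true := by decide +kernel

theorem SV_sep {O p : ℕ} (hp : p < 24) (hchk : sepChk O p = true) {x y : GolayPt}
    (hx : x ∈ ofMask O) (hxy : x ≠ y) :
    ∃ v : V2, v ≠ 0 ∧ ∃ t ∈ SV v, pt p ∈ t ∧ ¬ (x ∈ t ↔ y ∈ t) := by
  obtain ⟨ix, hix, rfl⟩ := exists_idx x
  obtain ⟨iy, hiy, rfl⟩ := exists_idx y
  have h := allB_spec (allB_spec hchk ix hix) iy hiy
  have hne : Nat.beq ix iy = false := tr_nbeq (fun e => hxy (by rw [e]))
  have hb := (pt_mem_ofMask hix).mp hx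
  rw [hb, hne] at h
  simp only [Bool.not_true, Bool.false_or] at h
  rw [anyB_iff] at h
  obtain ⟨c, hc, h⟩ := h
  rw [Bool.and_eq_true, anyB_iff] at h
  obtain ⟨hc0, i, hi, h⟩ := h
  rw [Bool.and_eq_true] at h
  have hc0' : c ≠ 0 := by
    intro e
    rw [e] at hc0
    simp at hc0
  refine ⟨vecOf c, vecOf_ne_zero hc hc0', ofMask (svm c i), ?_, (pt_mem_ofMask hp).mpr h.1, ?_⟩
  · refine mem_SV.mpr ⟨i, hi, ?_⟩
    rw [k_vecOf c hc]
  · rw [pt_mem_ofMask hix, pt_mem_ofMask hiy]
    exact tr_bxor h.2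

theorem k_f4 : allB 24 (fun x => allB 24 (fun y => Nat.beq x y ||
    anyB 8 (fun c => !(Nat.beq c 0) && anyB 6 (fun i => tb (svm c i) x &&
      !(tb (svm c i) y))))) = true := by decide +kernel

theorem SV_sep_all {x y : GolayPt} (hxy : x ≠ y) :
    ∃ v : V2, v ≠ 0 ∧ ∃ t ∈ SV v, x ∈ t ∧ y ∉ t := by
  obtain ⟨ix, hix, rfl⟩ := exists_idx x
  obtain ⟨iy, hiy, rfl⟩ := exists_idx y
  have h := allB_spec (allB_spec k_f4 ix hix) iy hiy
  have hne : Nat.beq ix iy = false := tr_nbeq (fun e => hxy (by rw [e]))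
  rw [hne, Bool.false_or, anyB_iff] at h
  obtain ⟨c, hc, h⟩ := h
  rw [Bool.and_eq_true, anyB_iff] at h
  obtain ⟨hc0, i, hi, h⟩ := h
  rw [Bool.and_eq_true] at h
  have hc0' : c ≠ 0 := by
    intro e
    rw [e] at hc0
    simp at hc0
  refine ⟨vecOf c, vecOf_ne_zero hc hc0', ofMask (svm c i), ?_, (pt_mem_ofMask hix).mpr h.1, ?_⟩
  · refine mem_SV.mpr ⟨i, hi, ?_⟩
    rw [k_vecOf c hc]
  · rw [pt_mem_ofMask hiy]
    have h2 := h.2
    intro hc
    rw [hc] at h2
    simp at h2

/-- For the points of the third octad, the numbers of two octads meeting it in two points and each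
other, inside it, in the given point only. -/
def trW : List ℕ := [0, 0, 0, 0, 0, 1, 0, 0, 1, 3, 0, 0, 0, 0, 0, 6, 0, 0, 0, 0, 132, 211, 330, 506]
/-- See `trW`. -/
def trW' : List ℕ := [0, 0, 0, 0, 0, 3, 0, 0, 5, 5, 0, 0, 0, 0, 0, 8, 0, 0, 0, 0, 134, 213, 333, 508]

theorem k_f3 : allB 24 (fun x => !(tb 15762208 x) ||
    (Nat.blt (trW.getD x 0) 759 && Nat.blt (trW'.getD x 0) 759 &&
    tb (get24 OA (trW.getD x 0)) x && tb (get24 OA (trW'.getD x 0)) x &&
    Nat.beq (popc (Nat.land (get24 OA (trW.getD x 0)) 15762208)) 2 &&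
    Nat.beq (popc (Nat.land (get24 OA (trW'.getD x 0)) 15762208)) 2 &&
    Nat.beq (Nat.land (Nat.land (get24 OA (trW.getD x 0)) (get24 OA (trW'.getD x 0))) 15762208)
      (Nat.shiftLeft 1 x))) = true := by decide +kernel

theorem exists_two_octads {x : GolayPt} (hx : x ∈ ofMask 15762208) :
    ∃ o ∈ octads, ∃ o' ∈ octads, x ∈ o ∧ x ∈ o' ∧ (o ∩ ofMask 15762208).card = 2 ∧
      (o' ∩ ofMask 15762208).card = 2 ∧ o ∩ o' ∩ ofMask 15762208 = {x} := by
  obtain ⟨ix, hix, rfl⟩ := exists_idx x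
  have h := tr_bor1 (allB_spec k_f3 ix hix) ((pt_mem_ofMask hix).mp hx)
  simp only [Bool.and_eq_true, Nat.blt_eq, Nat.beq_eq] at h
  obtain ⟨⟨⟨⟨⟨⟨h1, h2⟩, h3⟩, h4⟩, h5⟩, h6⟩, h7⟩ := h
  refine ⟨ofMask (get24 OA (trW.getD ix 0)), OA_mem h1, ofMask (get24 OA (trW'.getD ix 0)),
    OA_mem h2, (pt_mem_ofMask hix).mpr h3, (pt_mem_ofMask hix).mpr h4, ?_, ?_, ?_⟩
  · rw [← ofMask_and, card_ofMask]
    exact h5
  · rw [← ofMask_and, card_ofMask]
    exact h6
  · rw [← ofMask_and, ← ofMask_and, ← ofMask_one_shiftLeft hix]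
    exact congrArg ofMask h7

theorem tr_cover (x : GolayPt) : x ∈ ofMask 5279 ∨ x ∈ ofMask 1009728 ∨ x ∈ ofMask 15762208 := by
  have e : (5279 ||| 1009728 ||| 15762208 : ℕ) = 16777215 := by decide
  have h : x ∈ ofMask (5279 ||| 1009728 ||| 15762208) := by
    rw [e, ofMask_full]
    exact Finset.mem_univ x
  rw [ofMask_or, ofMask_or, Finset.mem_union, Finset.mem_union] at h
  tauto

/-! ## Elements fixing the seven sextets and the three octads -/

theorem trN_tetrad {m : Equiv.Perm GolayPt} (hS : ∀ v : V2, v ≠ 0 → m • SV v = SV v) {v : V2}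
    (hv : v ≠ 0) {t : Finset GolayPt} (ht : t ∈ SV v) {p : GolayPt} (hp : p ∈ t)
    (hmp : m p = p) : m • t = t := by
  have h1 : m • t ∈ SV v := by
    have := Finset.smul_mem_smul_finset (a := m) ht
    rwa [hS v hv] at this
  by_contra hne
  have hd := Sext.sextet_disj (SV_mem v) h1 ht hne
  have hp' : p ∈ m • t := by
    have := Finset.smul_mem_smul_finset (a := m) hp
    rwa [show m • p = p from hmp] at this
  exact Finset.disjoint_left.mp hd hp' hp

theorem trN_fix {O p : ℕ} (hp : p < 24) (hchk : sepChk O p = true) {m : Equiv.Perm GolayPt}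
    (hS : ∀ v : V2, v ≠ 0 → m • SV v = SV v) (hmp : m (pt p) = pt p) {x : GolayPt}
    (hx : x ∈ ofMask O) : m x = x := by
  by_contra hne
  obtain ⟨v, hv, t, ht, hpt, hsep⟩ := SV_sep hp hchk hx (Ne.symm hne)
  have h1 := trN_tetrad hS hv ht hpt hmp
  apply hsep
  have h2 := Finset.smul_mem_smul_finset_iff (s := t) (b := x) m
  rw [h1] at h2
  exact h2.symm

theorem trN_one {m : Equiv.Perm GolayPt} (hm : m ∈ M24) (h0 : ∀ x ∈ ofMask 5279, m x = x)
    (h1 : ∀ x ∈ ofMask 1009728, m x = x) : m = 1 := by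
  have hfix : ∀ q, q ∉ ofMask 15762208 → m q = q := by
    intro q hq
    rcases tr_cover q with h | h | h
    · exact h0 q h
    · exact h1 q h
    · exact absurd h hq
  have key : ∀ o ∈ octads, (o ∩ ofMask 15762208).card = 2 → m • o = o := by
    intro o ho hc
    by_contra hne
    have hcard := Octads.octad_inter ((smul_mem_octads hm).mpr ho) ho hne
    have hsub : o \ ofMask 15762208 ⊆ m • o ∩ o := by
      intro q hq
      rw [Finset.mem_sdiff] at hq
      refine Finset.mem_inter.mpr ⟨?_, hq.1⟩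
      have := Finset.smul_mem_smul_finset (a := m) hq.1
      rwa [show m • q = q from hfix q hq.2] at this
    have h6 : (o \ ofMask 15762208).card = 6 := by
      have := Finset.card_sdiff_add_card_inter o (ofMask 15762208)
      rw [hc, ho.2] at this
      omega
    have := Finset.card_le_card hsub
    omega
  apply Equiv.ext
  intro x
  show m x = x
  rcases tr_cover x with hx | hx | hx
  · exact h0 x hx
  · exact h1 x hx
  · obtain ⟨o, ho, o', ho', hxo, hxo', hc, hc', hint⟩ := exists_two_octads hx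
    have hm3 : m x ∈ ofMask 15762208 := by
      by_contra hq
      have e : m x = x := m.injective (hfix _ hq)
      rw [e] at hq
      exact hq hx
    have a1 : m x ∈ o := by
      have := Finset.smul_mem_smul_finset (a := m) hxo
      rwa [key o ho hc] at this
    have a2 : m x ∈ o' := by
      have := Finset.smul_mem_smul_finset (a := m) hxo'
      rwa [key o' ho' hc'] at this
    have a3 : m x ∈ o ∩ o' ∩ ofMask 15762208 :=
      Finset.mem_inter.mpr ⟨Finset.mem_inter.mpr ⟨a1, a2⟩, hm3⟩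
    rw [hint, Finset.mem_singleton] at a3
    exact a3

/-- The elements of `M24` fixing each of the seven sextets and each octad of the first trio. -/
def IsTrN (m : Equiv.Perm GolayPt) : Prop :=
  m ∈ M24 ∧ (∀ v : V2, v ≠ 0 → m • SV v = SV v) ∧ ∀ o ∈ Trio.tr 0, m • o = o

theorem trN_inj {m m' : Equiv.Perm GolayPt} (h : IsTrN m) (h' : IsTrN m')
    (e0 : m (pt 0) = m' (pt 0)) (e6 : m (pt 6) = m' (pt 6)) : m = m' := by
  have hM : m⁻¹ * m' ∈ M24 := mul_mem (inv_mem h.1) h'.1
  have hS : ∀ v : V2, v ≠ 0 → (m⁻¹ * m') • SV v = SV v := by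
    intro v hv
    rw [mul_smul, h'.2.1 v hv, inv_smul_eq_iff, h.2.1 v hv]
  have f0 : (m⁻¹ * m') (pt 0) = pt 0 := by
    rw [Equiv.Perm.mul_apply, ← e0]
    simp
  have f6 : (m⁻¹ * m') (pt 6) = pt 6 := by
    rw [Equiv.Perm.mul_apply, ← e6]
    simp
  have := trN_one hM (fun x hx => trN_fix (by norm_num) k_sep0 hS f0 hx)
    (fun x hx => trN_fix (by norm_num) k_sep1 hS f6 hx)
  exact inv_mul_eq_one.mp this

theorem trN_sq {m : Equiv.Perm GolayPt} (h : IsTrN m) : m * m = 1 := by
  have key : ∀ v : V2, v ≠ 0 → ∀ t ∈ SV v, m • (m • t) = t := by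
    intro v hv t ht
    obtain ⟨o, ho, hsub⟩ := SV_refines hv t ht
    have h1 : m • t ∈ SV v := by
      have := Finset.smul_mem_smul_finset (a := m) ht
      rwa [h.2.1 v hv] at this
    have h2 : m • (m • t) ∈ SV v := by
      have := Finset.smul_mem_smul_finset (a := m) h1
      rwa [h.2.1 v hv] at this
    have s1 : m • t ⊆ o := by
      have := Finset.smul_finset_subset_smul_finset (a := m) hsub
      rwa [h.2.2 o ho] at this
    have s2 : m • (m • t) ⊆ o := by
      have := Finset.smul_finset_subset_smul_finset (a := m) s1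
      rwa [h.2.2 o ho] at this
    by_cases hne : t = m • t
    · rw [← hne, ← hne]
    · rcases SV_two hv ho ht h1 h2 hsub s1 s2 hne with e | e
      · exact e
      · exact absurd (MulAction.injective m e).symm hne
  apply Equiv.ext
  intro x
  show m (m x) = x
  by_contra hne
  obtain ⟨v, hv, t, ht, hxt, hyt⟩ := SV_sep_all (Ne.symm hne)
  apply hyt
  have := Finset.smul_mem_smul_finset (a := m) (Finset.smul_mem_smul_finset (a := m) hxt)
  rwa [key v hv t ht] at this

theorem trN_card : {m : Equiv.Perm GolayPt | IsTrN m}.ncard ≤ 64 := by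
  classical
  refine le_trans (Set.ncard_le_ncard_of_injOn
    (t := (↑(ofMask 5279 ×ˢ ofMask 1009728) : Set (GolayPt × GolayPt)))
    (fun m => (m (pt 0), m (pt 6))) ?_ ?_ (Finset.finite_toSet _)) ?_
  · intro m hm
    have o0 : ofMask 5279 ∈ Trio.tr 0 := mem_tr0.mpr ⟨0, by norm_num, rfl⟩
    have o1 : ofMask 1009728 ∈ Trio.tr 0 := mem_tr0.mpr ⟨1, by norm_num, rfl⟩
    have p0 : pt 0 ∈ ofMask 5279 := (pt_mem_ofMask (by norm_num)).mpr (by decide)
    have p6 : pt 6 ∈ ofMask 1009728 := (pt_mem_ofMask (by norm_num)).mpr (by decide)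
    have a0 := Finset.smul_mem_smul_finset (a := m) p0
    have a6 := Finset.smul_mem_smul_finset (a := m) p6
    rw [hm.2.2 _ o0] at a0
    rw [hm.2.2 _ o1] at a6
    rw [Finset.mem_coe, Finset.mem_product]
    exact ⟨a0, a6⟩
  · intro m hm m' hm' e
    exact trN_inj hm hm' (congrArg Prod.fst e) (congrArg Prod.snd e)
  · rw [Set.ncard_coe_finset, Finset.card_product, card_ofMask, card_ofMask]
    decide +kernel

/-! ## The action of the stabiliser of the first trio on the seven sextets -/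

theorem smul_SV (h : ↥(MulAction.stabilizer ↥M24 (Trio.tr 0))) {v : V2} (hv : v ≠ 0) :
    ∃ w : V2, w ≠ 0 ∧ ((h : ↥M24) : Equiv.Perm GolayPt) • SV v = SV w := by
  have h1 : ((h : ↥M24) : Equiv.Perm GolayPt) • Trio.tr 0 = Trio.tr 0 := h.2
  have h2 := refines_smul ((h : ↥M24) : Equiv.Perm GolayPt) (SV_refines hv)
  rw [h1] at h2
  exact exists_SV (Sext.smul_sextet (h : ↥M24).2 (SV_mem v)) h2

/-- The action of the stabiliser of the first trio on the vectors. -/
noncomputable def trF (h : ↥(MulAction.stabilizer ↥M24 (Trio.tr 0))) (v : V2) : V2 :=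
  if hv : v = 0 then 0 else Classical.choose (smul_SV h hv)

theorem trF_zero (h : ↥(MulAction.stabilizer ↥M24 (Trio.tr 0))) : trF h 0 = 0 := dif_pos rfl

theorem trF_spec (h : ↥(MulAction.stabilizer ↥M24 (Trio.tr 0))) {v : V2} (hv : v ≠ 0) :
    trF h v ≠ 0 ∧ ((h : ↥M24) : Equiv.Perm GolayPt) • SV v = SV (trF h v) := by
  unfold trF
  rw [dif_neg hv]
  exact Classical.choose_spec (smul_SV h hv)

theorem trF_unique (h : ↥(MulAction.stabilizer ↥M24 (Trio.tr 0))) {v w : V2} (hv : v ≠ 0)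
    (hw : w ≠ 0) (e : ((h : ↥M24) : Equiv.Perm GolayPt) • SV v = SV w) : trF h v = w :=
  SV_inj (trF_spec h hv).1 hw ((trF_spec h hv).2.symm.trans e)

/-- The stabiliser of the first trio maps to `GL(3, 2)`; the elements of the kernel fix the seven
sextets. -/
theorem trio_base_hom : ∃ φ : ↥(MulAction.stabilizer ↥M24 (Trio.tr 0)) →* GL (Fin 3) (ZMod 2),
    ∀ h, φ h = 1 → ∀ v : V2, v ≠ 0 → ((h : ↥M24) : Equiv.Perm GolayPt) • SV v = SV v := by
  obtain ⟨φ, hφ⟩ := exists_GL3_hom (K := ↥(MulAction.stabilizer ↥M24 (Trio.tr 0))) trF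
    (by
      intro v
      by_cases hv : v = 0
      · rw [hv, trF_zero]
      · exact trF_unique 1 hv hv (one_smul _ _))
    (by
      intro a b v
      by_cases hv : v = 0
      · rw [hv, trF_zero, trF_zero, trF_zero]
      · have hb := trF_spec b hv
        have ha := trF_spec a hb.1
        refine trF_unique (a * b) hv ha.1 ?_
        show (((a : ↥M24) : Equiv.Perm GolayPt) * ((b : ↥M24) : Equiv.Perm GolayPt)) • SV v = _
        rw [mul_smul, hb.2, ha.2])
    trF_zero
    (by
      intro a u v hu hv huv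
      have huv0 : u + v ≠ 0 := by
        intro e
        apply huv
        have e2 := V2_two v
        exact add_right_cancel (e.trans e2.symm)
      have su := trF_spec a hu
      have sv := trF_spec a hv
      have sw := trF_spec a huv0
      have col := col3_smul ((a : ↥M24) : Equiv.Perm GolayPt) (SV_col hu hv huv)
      rw [su.2, sv.2, sw.2] at col
      have hne : trF a u ≠ trF a v := by
        intro e
        have e2 : ((a : ↥M24) : Equiv.Perm GolayPt) • SV u =
            ((a : ↥M24) : Equiv.Perm GolayPt) • SV v := by rw [su.2, sv.2, e]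
        exact huv (SV_inj hu hv (MulAction.injective _ e2))
      exact SV_col_unique su.1 sv.1 sw.1 hne col)
  refine ⟨φ, fun h h1 v hv => ?_⟩
  have e := hφ h v
  rw [h1] at e
  have e' : trF h v = v := by
    rw [e]
    simp
  have s := (trF_spec h hv).2
  rw [e'] at s
  exact s

end Cfsg.Agent.Helper12
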